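import Cfsg.Agent.Chev.Ree.Rigid
import Cfsg.Agent.Chev.Ree.LocalNormalizers
import Cfsg.Agent.AutPSL.Card
import Cfsg.Prelude.Def_KGroupFacts

/-! The automorphisms of the small Ree groups. -/

set_option autoImplicit false
set_option maxRecDepth 100000
set_option linter.style.haveILetI false
set_option linter.unusedSectionVars false

namespace CfsgLib.Chev.Ree

open Cfsg.Lie CfsgLib.Chev Matrix

universe u

variable {K : Type u} [Field K] [Finite K] [CharP K 3] (m : ℕ)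

local notation "θ" => (3 ^ m : ℕ)
local notation "G¹" => twistedG2 K (3 ^ m)
local notation "qq" => (3 ^ (2 * m + 1) : ℕ)

variable (hK : Nat.card K = 3 ^ (2 * m + 1))

theorem conj_aut_apply (g x : ↥G¹) (α : MulAut ↥G¹) : (MulAut.conj g * α) x = g * α x * g⁻¹ := rfl

include hK in
/-- An automorphism can be corrected to stabilise `U` and the torus. -/
theorem exists_std (hm1 : 1 ≤ m) (α : MulAut ↥G¹) : ∃ g : ↥G¹,
    (∀ x ∈ posSet K m, (MulAut.conj g * α) x ∈ posSet K m) ∧ ∀ x ∈ TG K m, (MulAut.conj g * α) x ∈ TG K m := by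
  haveI : Fact (Nat.Prime 3) := ⟨Nat.prime_three⟩
  obtain ⟨U, hU⟩ := exists_UG (K := K) m hK
  obtain ⟨P, hP⟩ := (U.isPGroup'.map α.toMonoidHom).exists_le_sylow
  obtain ⟨c, hc⟩ := MulAction.exists_smul_eq ↥G¹ P U
  set β := MulAut.conj c * α with hβ
  have hβU : ∀ x ∈ posSet K m, β x ∈ posSet K m := fun x hx => by
    show ((β x : ↥G¹) : GL chevG2.Idx K) ∈ chevG2.posUnipotent K
    rw [← hU, ← hc, Sylow.coe_subgroup_smul, Subgroup.mem_pointwise_smul_iff_inv_smul_mem, ← map_inv,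
      MulAut.smul_def, MulAut.conj_apply, inv_inv, hβ, conj_aut_apply,
      show c⁻¹ * (c * α x * c⁻¹) * c = α x by group]
    exact hP ⟨x, (hU x).2 hx, rfl⟩
  have hβB : ∀ g ∈ BG K m, β g ∈ BG K m := fun g hg => by
    have hy : β (wr m 0 1 0) ∈ posSet K m := hβU _ (wr_mem_pos m 0 1 0)
    have hy' : β g * β (wr m 0 1 0) * (β g)⁻¹ ∈ posSet K m := by
      rw [← map_inv, ← map_mul, ← map_mul]
      exact hβU _ (borel_conj_pos ((mem_BG m).1 hg) (wr_mem_pos m 0 1 0))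
    refine (mem_BG m).2 (conj_mem_borel m hK hy (fun e => ?_) hy')
    rw [MulEquiv.map_eq_one_iff] at e
    exact one_ne_zero (α := K) (wr_inj m (e.trans (wr_zero m).symm)).2.1
  have hTB : ∀ x ∈ TG K m, x ∈ BG K m := fun x hx =>
    (mem_BG m).2 (Subgroup.mem_sup_right (Subgroup.mem_inf.1 ((mem_TG m).1 hx)).1)
  have h2 : β (hmG K m) * β (hmG K m) = 1 := by rw [← map_mul, hmG_mul_self m hK, map_one]
  have h1 : β (hmG K m) ≠ 1 := fun e => hmG_ne_one m hK ((MulEquiv.map_eq_one_iff β).1 e)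
  obtain ⟨b, hb, hbh⟩ := borel_involution_conj m hK
    ((mem_BG m).1 (hβB _ (hTB _ (hmG_mem_TG m hK)))) h2 h1
  set γ := MulAut.conj b * β with hγ
  have hγU : ∀ x ∈ posSet K m, γ x ∈ posSet K m := fun x hx => by
    rw [hγ, conj_aut_apply]; exact borel_conj_pos hb (hβU x hx)
  have hγh : γ (hmG K m) = hmG K m := by rw [hγ, conj_aut_apply]; exact hbh
  obtain ⟨a, c₁, haT, -, hoa, hgen, -⟩ := exists_torus_gen (K := K) m hK hm1
  have hCB : γ a ∈ Ch K m ⊓ BG K m := by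
    refine Subgroup.mem_inf.2 ⟨(mem_Ch m).2 ?_, ?_⟩
    · conv_lhs => rw [← hγh, ← map_mul, TG_comm m hK (hmG_mem_TG m hK) haT, map_mul, hγh]
    · rw [hγ, conj_aut_apply]
      exact mul_mem (mul_mem ((mem_BG m).2 hb) (hβB a (hTB a haT))) (inv_mem ((mem_BG m).2 hb))
  obtain ⟨t, h, hhT, hg⟩ : ∃ t : K, ∃ h ∈ TG K m, γ a = wr m 0 t 0 * h := by
    obtain ⟨t, s, hs, e⟩ := borel_fixed_hm m hK (g := ((γ a : ↥G¹) : GL chevG2.Idx K))
      (by rw [← borel_inf_eq m hK]; exact Subgroup.mem_inf.2 ⟨(mem_BG m).1 (Subgroup.mem_inf.1 hCB).2, (γ a).2⟩)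
      (congrArg Subtype.val ((mem_Ch m).1 (Subgroup.mem_inf.1 hCB).1))
    rcases e with e | e
    · exact ⟨t, ⟨hG m s, hG_mem m hs⟩, (mem_TG m).2 (hG_mem_H1 m hK hs), Subtype.ext e⟩
    · refine ⟨t, hmG K m * ⟨hG m s, hG_mem m hs⟩,
        mul_mem (hmG_mem_TG m hK) ((mem_TG m).2 (hG_mem_H1 m hK hs)), Subtype.ext ?_⟩
      rw [e]
      show hm K * (xG m t * hG m s) = xG m t * (hm K * hG m s)
      rw [← mul_assoc, ← mul_assoc, hm_comm_x m hK]
  obtain ⟨ch, hch, hform⟩ := torus_form m hK hhT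
  obtain ⟨s, hs⟩ : ∃ s : K, wr m 0 s 0 * γ a * (wr m 0 s 0)⁻¹ ∈ TG K m := by
    by_cases hl : (ch : K) ^ (3 * θ + 3) = 1
    · have hh2 : h * h = 1 := by
        refine torus_sq_of_coord m hK hch ?_
        obtain ⟨-, g10, -⟩ := exponents_gcd (K := K) m hK
        have h1 : ch ^ (3 * θ + 3) = 1 := Units.ext (by rw [Units.val_pow_eq_pow_val]; exact hl)
        have h2' : ch ^ (qq - 1) = 1 := by rw [← hK, ← Nat.card_units]; exact pow_card_eq_one'
        have h3 := pow_gcd_eq_one.2 ⟨h2', h1⟩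
        rw [← pow_two]
        have hpos := Nat.gcd_pos_of_pos_right (qq - 1) (show 0 < 3 * θ + 3 by omega)
        obtain hg | hg : Nat.gcd (qq - 1) (3 * θ + 3) = 1 ∨ Nat.gcd (qq - 1) (3 * θ + 3) = 2 := by omega
        · rw [hg, pow_one] at h3; rw [h3, one_pow]
        · rwa [hg] at h3
      have hcomm : Commute (wr m 0 t 0) h := by
        have := hform 0 t 0
        rw [mul_zero, hl, one_mul, mul_zero, mul_inv_eq_iff_eq_mul] at this
        exact this.symm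
      exfalso
      have h6 : (γ a) ^ 6 = 1 := by
        rw [hg, hcomm.mul_pow, show wr m 0 t 0 ^ 6 = (wr m 0 t 0 ^ 3) ^ 2 by rw [← pow_mul],
          (cube_wr m hK 0 t 0).2 rfl, one_pow, one_mul, show h ^ 6 = (h ^ 2) ^ 3 by rw [← pow_mul],
          pow_two, hh2, one_pow]
      rw [← map_pow, MulEquiv.map_eq_one_iff] at h6
      have := Nat.le_of_dvd (by norm_num) (orderOf_dvd_of_pow_eq_one h6)
      rw [hoa] at this
      have : 3 ^ 3 ≤ qq := Nat.pow_le_pow_right (by norm_num) (by omega)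
      omega
    · refine ⟨-t / (1 - (ch : K) ^ (3 * θ + 3)), ?_⟩
      set s := -t / (1 - (ch : K) ^ (3 * θ + 3)) with hs
      have hne : 1 - (ch : K) ^ (3 * θ + 3) ≠ 0 := sub_ne_zero.2 (Ne.symm hl)
      have he : wr m 0 s 0 * γ a * (wr m 0 s 0)⁻¹ = h := by
        rw [mul_inv_eq_iff_eq_mul, hg]
        have := hform 0 s 0
        rw [mul_zero, mul_zero, mul_inv_eq_iff_eq_mul] at this
        rw [this, ← mul_assoc, wr_mul_low m hK, add_zero]
        congr 2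
        rw [hs]; field_simp; ring
      rw [he]; exact hhT
  refine ⟨wr m 0 s 0 * (b * c), ?_, ?_⟩ <;>
    rw [show MulAut.conj (wr m 0 s 0 * (b * c)) * α = MulAut.conj (wr m 0 s 0) * γ by
      rw [hγ, hβ, map_mul, map_mul, mul_assoc, mul_assoc]]
  · intro x hx
    rw [conj_aut_apply]
    exact borel_conj_pos (Subgroup.mem_sup_left (W_mem _ _ _ _ _ _)) (hγU x hx)
  · intro x hx
    rw [conj_aut_apply]
    rw [← hgen] at hx
    obtain ⟨k, rfl⟩ := Subgroup.mem_zpowers_iff.1 hx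
    rw [map_zpow, ← conj_zpow]
    exact zpow_mem hs k

include hK in
theorem exists_decomposition (hm1 : 1 ≤ m) (α : MulAut ↥G¹) :
    ∃ (k : ↥G¹) (σ : RingAut K), α = MulAut.conj k * fieldHom K m σ := by
  obtain ⟨k, hU, hT⟩ := exists_std m hK hm1 α
  set γ := MulAut.conj k * α with hγ
  choose A B C hABC using fun t u v => exists_wr m hK (hU _ (wr_mem_pos m t u v))
  have hA0 : ∀ u v, A 0 u v = 0 := fun u v => by
    have h := congrArg γ ((cube_wr m hK 0 u v).2 rfl)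
    rw [map_pow, map_one, hABC] at h
    exact (cube_wr m hK _ _ _).1 h
  have hAdd : ∀ s t, A (s + t) 0 0 = A s 0 0 + A t 0 0 := by
    intro s t
    have e : wr m (s + t) 0 0 * wr m 0 (-(t ^ (3 * θ) * s)) (t ^ (3 * θ) * s * t - t ^ (3 * θ) * s ^ 2) =
        wr m s 0 0 * wr m t 0 0 := by
      rw [wr_mul m hK s, wr_mul_low m hK]
      congr 1 <;> ring
    have h := congrArg γ e
    rw [map_mul, map_mul, hABC, hABC, hABC, hABC, hA0, wr_mul m hK, wr_mul m hK] at h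
    linear_combination (wr_inj m h).1
  have hA1 : A 1 0 0 ≠ 0 := fun e => by
    have h := hABC 1 0 0
    have h3 : γ (wr m 1 0 0) ^ 3 = 1 := by rw [h, e]; exact (cube_wr m hK _ _ _).2 rfl
    rw [← map_pow, MulEquiv.map_eq_one_iff] at h3
    exact one_ne_zero ((cube_wr m hK (1 : K) 0 0).1 h3)
  have hmul : ∀ x y, A (x * y) 0 0 * A 1 0 0 = A x 0 0 * A y 0 0 := by
    intro x
    rcases eq_or_ne x 0 with rfl | hx
    · intro y; rw [zero_mul, hA0, zero_mul, zero_mul]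
    obtain ⟨b, hbT, hb⟩ := torus_elt m hK ((Units.mk0 x hx) ^ θ)
    obtain ⟨d, -, hd⟩ := torus_form m hK (hT b hbT)
    have e1 : ((Units.mk0 x hx ^ θ : Kˣ) : K) ^ (3 * θ) = x := by
      rw [← Units.val_pow_eq_pow_val, units_pow_theta m hK]; rfl
    have h : ∀ y, A (x * y) 0 0 = (d : K) ^ (3 * θ) * A y 0 0 := fun y => by
      have h := congrArg γ (hb y 0 0)
      rw [map_mul, map_mul, map_inv, hABC, hd] at h
      simp only [mul_zero] at h
      rw [e1, hABC] at h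
      exact (wr_inj m h).1.symm
    intro y
    have h1 := h 1
    rw [mul_one] at h1
    rw [h y, h1]; ring
  set σf : K → K := fun x => A x 0 0 / A 1 0 0 with hσf
  have hσ0 : σf 0 = 0 := by simp [hσf, hA0]
  let σr : K →+* K :=
    { toFun := σf
      map_one' := div_self hA1
      map_zero' := hσ0
      map_add' := fun x y => by simp only [hσf]; rw [hAdd, add_div]
      map_mul' := fun x y => by
        simp only [hσf]
        rw [div_mul_div_comm, ← hmul, mul_div_mul_right _ _ hA1] }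
  let σ : RingAut K := RingEquiv.ofBijective σr (Finite.injective_iff_bijective.mp σr.injective)
  obtain ⟨a₀, ha₀, hform⟩ := torus_elt m hK ((Units.mk0 (A 1 0 0) hA1)⁻¹ ^ θ)
  have e0 : (((Units.mk0 (A 1 0 0) hA1)⁻¹ ^ θ : Kˣ) : K) ^ (3 * θ) = (A 1 0 0)⁻¹ := by
    rw [← Units.val_pow_eq_pow_val, units_pow_theta m hK, Units.val_inv_eq_inv_val, Units.val_mk0]
  refine ⟨(a₀ * k)⁻¹, σ, ?_⟩
  have key : (fieldHom K m σ)⁻¹ * (MulAut.conj a₀ * γ) = 1 := by
    rw [← map_inv]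
    refine rigid m hK hm1 _ (fun x hx => ?_) (fun a ha => ?_) (fun t => ?_)
    · exact fieldHom_pos m _ (borel_conj_pos (Subgroup.mem_sup_right (Subgroup.mem_inf.1 ((mem_TG m).1 ha₀)).1) (hU x hx))
    · exact fieldHom_TG m hK _ (mul_mem (mul_mem ha₀ (hT a ha)) (inv_mem ha₀))
    · have e : (MulAut.conj a₀ * γ) (wr m t 0 0) = wr m (σ t)
          ((((Units.mk0 (A 1 0 0) hA1)⁻¹ ^ θ : Kˣ) : K) ^ (3 * θ + 3) * B t 0 0)
          ((((Units.mk0 (A 1 0 0) hA1)⁻¹ ^ θ : Kˣ) : K) ^ (6 * θ + 3) * C t 0 0) := by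
        rw [conj_aut_apply, hABC, hform, e0, mul_comm]
        exact congrArg (fun z => wr m z _ _) (div_eq_mul_inv _ _).symm
      rw [MulAut.mul_apply, e, fieldHom_wr, show σ⁻¹ (σ t) = t from σ.symm_apply_apply t]
      exact ⟨_, _, rfl⟩
  rw [inv_mul_eq_one, hγ, ← mul_assoc, ← map_mul] at key
  rw [map_inv, key, inv_mul_cancel_left]

include hK in
theorem fieldHom_inner (hm1 : 1 ≤ m) {σ : RingAut K} {g : ↥G¹} (e : fieldHom K m σ = MulAut.conj g) : σ = 1 := by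
  have e' : ∀ x, fieldHom K m σ x = g * x * g⁻¹ := fun x => by rw [e]; rfl
  have hgB : g ∈ BG K m := by
    refine (mem_BG m).2 (conj_mem_borel m hK (y := wr m 0 1 0) (wr_mem_pos m 0 1 0)
      (fun h => one_ne_zero (α := K) (wr_inj m (h.trans (wr_zero m).symm)).2.1) ?_)
    rw [← e']
    exact fieldHom_pos m σ (wr_mem_pos m 0 1 0)
  have hgC : g ∈ Ch K m := (mem_Ch m).2 (by
    have h := e' (hmG K m)
    rw [fieldHom_hm, eq_mul_inv_iff_mul_eq] at h
    exact h)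
  obtain ⟨t, s, hs, hg⟩ := borel_fixed_hm m hK (g := (g : GL chevG2.Idx K))
    (by rw [← borel_inf_eq m hK]; exact Subgroup.mem_inf.2 ⟨(mem_BG m).1 hgB, g.2⟩)
    (congrArg Subtype.val ((mem_Ch m).1 hgC))
  obtain ⟨h, hhT, hgh⟩ : ∃ h ∈ TG K m, g = wr m 0 t 0 * h := by
    rcases hg with hg | hg
    · exact ⟨⟨hG m s, hG_mem m hs⟩, (mem_TG m).2 (hG_mem_H1 m hK hs), Subtype.ext hg⟩
    · refine ⟨hmG K m * ⟨hG m s, hG_mem m hs⟩,
        mul_mem (hmG_mem_TG m hK) ((mem_TG m).2 (hG_mem_H1 m hK hs)), Subtype.ext ?_⟩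
      rw [hg]
      show hm K * (xG m t * hG m s) = xG m t * (hm K * hG m s)
      rw [← mul_assoc, ← mul_assoc, hm_comm_x m hK]
  obtain ⟨a, c, haT, hoc, -, -, hform⟩ := exists_torus_gen (K := K) m hK hm1
  have ht : t = 0 := by
    have h1 := e' a
    have h2 : h * a * h⁻¹ = a := by rw [TG_comm m hK hhT haT, mul_inv_cancel_right]
    rw [hgh, show wr m 0 t 0 * h * a * (wr m 0 t 0 * h)⁻¹ = wr m 0 t 0 * (h * a * h⁻¹) * (wr m 0 t 0)⁻¹ by group,
      h2] at h1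
    have h3 : wr m 0 t 0 * a * (wr m 0 t 0)⁻¹ * a⁻¹ ∈ TG K m := by
      rw [← h1]; exact mul_mem (fieldHom_TG m hK σ haT) (inv_mem haT)
    rw [show wr m 0 t 0 * a * (wr m 0 t 0)⁻¹ * a⁻¹ = wr m 0 t 0 * (a * wr m 0 t 0 * a⁻¹)⁻¹ by group,
      hform] at h3
    have hpos : wr m 0 t 0 * (wr m ((c : K) ^ (3 * θ) * 0) ((c : K) ^ (3 * θ + 3) * t) ((c : K) ^ (6 * θ + 3) * 0))⁻¹ = 1 :=
      Subtype.ext (pos_diag m hK (mul_mem (W_mem _ _ _ _ _ _) (inv_mem (W_mem _ _ _ _ _ _))) ((mem_TG m).1 h3))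
    rw [mul_inv_eq_one] at hpos
    have h4 : t = (c : K) ^ (3 * θ + 3) * t := (wr_inj m hpos).2.1
    by_contra ht
    have h5 : c ^ (3 * θ + 3) = 1 := Units.ext (by
      rw [Units.val_pow_eq_pow_val, Units.val_one]
      exact mul_right_cancel₀ ht (h4.symm.trans (one_mul t).symm))
    have hd := orderOf_dvd_of_pow_eq_one h5
    rw [hoc] at hd
    obtain ⟨-, g10, -⟩ := exponents_gcd (K := K) m hK
    rw [Nat.gcd_eq_left hd] at g10
    have : 3 ^ 3 ≤ qq := Nat.pow_le_pow_right (by norm_num) (by omega)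
    omega
  obtain ⟨d, -, hd⟩ := torus_form m hK hhT
  have hg' : g = h := by rw [hgh, ht, wr_zero, one_mul]
  have hx : ∀ x, σ x = (d : K) ^ (3 * θ) * x := fun x => by
    have h1 := e' (wr m x 0 0)
    rw [fieldHom_wr, hg', hd] at h1
    exact (wr_inj m h1).1
  have hd1 : (d : K) ^ (3 * θ) = 1 := by
    have := hx 1
    rw [map_one, mul_one] at this
    exact this.symm
  exact RingEquiv.ext fun x => by rw [hx, hd1, one_mul]; rfl

include hK in
theorem card_out (hm1 : 1 ≤ m) : Nat.card (Cfsg.Out ↥G¹) = 2 * m + 1 := by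
  haveI : Fact (Nat.Prime 3) := ⟨Nat.prime_three⟩
  haveI := Fintype.ofFinite K
  rw [← CfsgLib.AutPSL.card_ringAut K (p := 3) (f := 2 * m + 1) (by rw [← Nat.card_eq_fintype_card, hK])]
  refine (Nat.card_congr (Equiv.ofBijective
    ((QuotientGroup.mk' (Cfsg.Inn ↥G¹)).comp (fieldHom K m)) ⟨?_, ?_⟩)).symm
  · refine (injective_iff_map_eq_one _).mpr fun σ hσ => ?_
    obtain ⟨g, hg⟩ := (QuotientGroup.eq_one_iff _).mp hσ
    exact fieldHom_inner m hK hm1 hg.symm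
  · intro x
    obtain ⟨α, rfl⟩ := QuotientGroup.mk'_surjective _ x
    obtain ⟨k, σ, rfl⟩ := exists_decomposition m hK hm1 α
    refine ⟨σ, ?_⟩
    rw [map_mul]
    have : QuotientGroup.mk' (Cfsg.Inn ↥G¹) (MulAut.conj k) = 1 := (QuotientGroup.eq_one_iff _).mpr ⟨k, rfl⟩
    rw [this, one_mul]
    rfl

end CfsgLib.Chev.Ree
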