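import Cfsg.Agent.Chev.Ree.Counts
import Cfsg.Agent.Chev.Ree.Law
import Cfsg.Agent.Chev.FieldMap

/-! Field automorphisms and torus coordinates of the small Ree groups. -/

set_option autoImplicit false
set_option maxRecDepth 100000
set_option linter.style.haveILetI false
set_option linter.unusedSectionVars false

namespace CfsgLib.Chev.Ree

open Cfsg.Lie CfsgLib.Chev Matrix

universe u

variable {K : Type u} [Field K] [Finite K] [CharP K 3] (m : ℕ)

local notation "θ" => (3 ^ m : ℕ)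
local notation "G¹" => twistedG2 K (3 ^ m)
local notation "qq" => (3 ^ (2 * m + 1) : ℕ)

/-- A positive fixed element, in the group. -/
noncomputable def wr (t u v : K) : ↥(twistedG2 K (3 ^ m)) := ⟨WR m t u v, WR_mem m t u v⟩

theorem coe_wr (t u v : K) : ((wr m t u v : ↥G¹) : GL chevG2.Idx K) = WR m t u v := rfl

theorem wr_zero : wr m (0 : K) 0 0 = 1 := Subtype.ext (WR_zero m)

theorem wr_inj {t u v t' u' v' : K} (h : wr m t u v = wr m t' u' v') : t = t' ∧ u = u' ∧ v = v' :=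
  WR_inj m (congrArg Subtype.val h)

theorem wr_mem_pos (t u v : K) : wr m t u v ∈ posSet K m := W_mem _ _ _ _ _ _

variable (hK : Nat.card K = 3 ^ (2 * m + 1))

include hK in
theorem wr_mul (t u v t' u' v' : K) : wr m t u v * wr m t' u' v' =
    wr m (t + t') (u + u' - t' ^ (3 * θ) * t)
      (v + v' - t' ^ (3 * θ) * t ^ 2 - (u - t' ^ (3 * θ) * t) * t') :=
  Subtype.ext (WR_mul m hK t u v t' u' v')

include hK in
theorem wr_mul_low (t u v u' v' : K) : wr m t u v * wr m 0 u' v' = wr m t (u + u') (v + v') := by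
  rw [wr_mul m hK, zero_pow (mul_ne_zero (by norm_num) (theta_ne_zero m)), add_zero]
  congr 1 <;> ring

include hK in
theorem exists_wr {g : ↥G¹} (hg : g ∈ posSet K m) : ∃ t u v : K, g = wr m t u v := by
  obtain ⟨t, u, v, e⟩ := (mem_pos_inf m hK).1 (Subgroup.mem_inf.2 ⟨hg, g.2⟩)
  exact ⟨t, u, v, Subtype.ext e⟩

include hK in
theorem hm_conj_wr (t u v : K) : hmG K m * wr m t u v * (hmG K m)⁻¹ = wr m (-t) u (-v) :=
  Subtype.ext (hm_conj_WR m hK t u v)

include hK in
theorem cube_wr (t u v : K) : wr m t u v ^ 3 = 1 ↔ t = 0 :=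
  ⟨fun h => (cube_eq_one_iff m hK t u v).1 (congrArg Subtype.val h),
    fun h => Subtype.ext ((cube_eq_one_iff m hK t u v).2 h)⟩

include hK in
theorem char_facts (hm1 : 1 ≤ m) : θ * (3 * θ) = qq ∧ 3 * θ - 1 < qq - 1 ∧ 0 < 3 * θ - 1 := by
  have h3 : 3 ≤ θ := Nat.le_self_pow (by omega) 3
  refine ⟨by ring, ?_, by omega⟩
  have : qq = θ * (3 * θ) := by ring
  have : 3 * (3 * θ) ≤ θ * (3 * θ) := Nat.mul_le_mul_right _ h3
  omega

include hK in
theorem units_pow_theta (x : Kˣ) : (x ^ θ) ^ (3 * θ) = x :=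
  Units.ext (by simpa using pow_theta m hK (x : K))

include hK in
theorem units_pow_inj {c d : Kˣ} (h : c ^ (3 * θ) = d ^ (3 * θ)) : c = d := by
  have e : ∀ x : Kˣ, x = (x ^ (3 * θ)) ^ θ := fun x => by
    conv_lhs => rw [← units_pow_theta m hK x]
    rw [← pow_mul, ← pow_mul, mul_comm]
  rw [e c, e d, h]

include hK in
/-- The coordinate of a torus element. -/
theorem torus_form {a : ↥G¹} (ha : a ∈ TG K m) : ∃ c : Kˣ,
    (a : GL chevG2.Idx K) = (torus K m hK c : GL chevG2.Idx K) ∧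
      ∀ t u v : K, a * wr m t u v * a⁻¹ =
        wr m ((c : K) ^ (3 * θ) * t) ((c : K) ^ (3 * θ + 3) * u) ((c : K) ^ (6 * θ + 3) * v) := by
  obtain ⟨c, hc⟩ := (torus K m hK).surjective ⟨(a : GL chevG2.Idx K), (mem_TG m).1 ha⟩
  have hc' : (a : GL chevG2.Idx K) = (torus K m hK c : GL chevG2.Idx K) := congrArg Subtype.val hc.symm
  refine ⟨c, hc', fun t u v => ?_⟩
  obtain ⟨hz0, hzH, -⟩ := (exists_coord m hK c).choose_spec
  have e : (a : GL chevG2.Idx K) = SG.dg (exists_coord m hK c).choose := hc'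
  generalize (exists_coord m hK c).choose = z at hz0 hzH e
  have hz1 : (z 1 : K) = (c : K) ^ (3 * θ) := by rw [coord_eq m hK hzH, hz0]
  refine Subtype.ext ?_
  show (a : GL chevG2.Idx K) * WR m t u v * (a : GL chevG2.Idx K)⁻¹ = WR m _ _ _
  rw [e, torus_conj_WR m hK hzH, chi6, chi10, chi11, Units.val_mul, Units.val_mul, Units.val_pow_eq_pow_val,
    Units.val_pow_eq_pow_val, hz0, hz1]
  congr 1
  · ring
  · rw [← pow_mul, ← pow_add]; ring_nf

include hK in
theorem exists_torus_gen (hm1 : 1 ≤ m) : ∃ a : ↥G¹, ∃ c : Kˣ, a ∈ TG K m ∧ orderOf c = qq - 1 ∧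
    orderOf a = qq - 1 ∧ Subgroup.zpowers a = TG K m ∧
      ∀ t u v : K, a * wr m t u v * a⁻¹ =
        wr m ((c : K) ^ (3 * θ) * t) ((c : K) ^ (3 * θ + 3) * u) ((c : K) ^ (6 * θ + 3) * v) := by
  haveI := isCyclic_TG (K := K) m hK
  obtain ⟨⟨a, ha⟩, hgen⟩ := IsCyclic.exists_generator (α := ↥(TG K m))
  have hoa : orderOf a = qq - 1 := by
    rw [← card_TG (K := K) m hK, ← orderOf_eq_card_of_forall_mem_zpowers hgen]
    exact (Subgroup.orderOf_mk a ha).symm
  obtain ⟨c, hc, hform⟩ := torus_form m hK ha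
  refine ⟨a, c, ha, ?_, hoa, ?_, hform⟩
  · rw [← orderOf_injective (torus K m hK).toMonoidHom (MulEquiv.injective _) c,
      ← orderOf_injective (H1 K m).subtype Subtype.val_injective]
    show orderOf (torus K m hK c : GL chevG2.Idx K) = _
    rw [← hc, ← hoa]
    exact orderOf_injective (Subgroup.subtype _) Subtype.val_injective a
  · exact Subgroup.eq_of_le_of_card_ge (Subgroup.zpowers_le.2 ha) (by rw [Nat.card_zpowers, hoa, card_TG m hK])

include hK in
theorem torus_sq_of_coord {a : ↥G¹} {c : Kˣ} (hc : (a : GL chevG2.Idx K) = (torus K m hK c : GL chevG2.Idx K))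
    (h : c * c = 1) : a * a = 1 := Subtype.ext (by
  rw [Subgroup.coe_mul, hc, ← Subgroup.coe_mul, ← map_mul, h, map_one, OneMemClass.coe_one, OneMemClass.coe_one])

/-! ### Field automorphisms -/

variable (σ : RingAut K)

local notation "fG" => glMap chevG2 (σ : K →+* K)

theorem fG_WR (t u v : K) : fG (WR m t u v) = WR m (σ t) (σ u) (σ v) := by
  simp [WR, W, X, Sys.glMap_xU, map_mul, map_add, map_pow]

theorem fG_nJ : fG (nJ K) = nJ K := by
  simp [nJ, Sys.glMap_xU, map_mul, map_neg]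

theorem fG_hU (r : ℕ) (s : K) : fG (SG.hU r s) = SG.hU r (σ s) := by
  refine Units.ext ?_
  rw [coe_glMap, Sys.coe_hU, Sys.coe_hU, hMat_map]
  rfl

theorem fG_hm : fG (hm K) = hm K := by rw [hm, fG_hU]; simp

theorem fG_hG (s : K) : fG (hG m s) = hG m (σ s) := by
  rw [hG, map_mul, fG_hU, fG_hU, hG, map_pow]

theorem map_twisted : (twistedG2 K θ).map fG = twistedG2 K θ := by
  have hle : ∀ τ : RingAut K, (twistedG2 K θ).map (glMap chevG2 (τ : K →+* K)) ≤ twistedG2 K θ := by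
    intro τ
    rw [twistedG2, ChevalleyDatum.genSubgroup, Subgroup.map_le_iff_le_comap, Subgroup.closure_le]
    rintro g ⟨w, ⟨t, u, v, hw | hw⟩, hgw⟩
    · have e : g = WR m t u v := Units.ext (by rw [hgw, hw, coe_WR])
      rw [SetLike.mem_coe, Subgroup.mem_comap, e, fG_WR]
      exact WR_mem m _ _ _
    · have e : g = nJ K * WR m t u v * (nJ K)⁻¹ := Units.ext (by rw [hgw, hw, coe_conj_WR])
      rw [SetLike.mem_coe, Subgroup.mem_comap, e, map_mul, map_mul, map_inv, fG_WR, fG_nJ]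
      exact conj_WR_mem m _ _ _
  refine le_antisymm (hle σ) fun g hg => ⟨glMap chevG2 (σ.symm : K →+* K) g, hle σ.symm ⟨g, hg, rfl⟩, ?_⟩
  refine Units.ext (Matrix.ext fun i j => ?_)
  show σ (σ.symm ((g : Matrix chevG2.Idx chevG2.Idx K) i j)) = _
  rw [RingEquiv.apply_symm_apply]

variable (K) in
/-- The field automorphisms of the group. -/
noncomputable def fieldHom : RingAut K →* MulAut ↥(twistedG2 K (3 ^ m)) :=
  MonoidHom.mk' (fun τ => ((twistedG2 K (3 ^ m)).equivMapOfInjective _ (glMap_injective chevG2 (τ : K →+* K))).trans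
    (MulEquiv.subgroupCongr (map_twisted m τ))) fun a b => by
      refine MulEquiv.ext fun x => Subtype.ext (Units.ext ?_)
      show ((x : GL chevG2.Idx K) : Matrix chevG2.Idx chevG2.Idx K).map ((a * b : RingAut K) : K →+* K) =
        (((x : GL chevG2.Idx K) : Matrix chevG2.Idx chevG2.Idx K).map (b : K →+* K)).map (a : K →+* K)
      rw [Matrix.map_map]
      rfl

theorem coe_fieldHom (x : ↥G¹) : ((fieldHom K m σ x : ↥G¹) : GL chevG2.Idx K) = fG x := rfl

theorem fieldHom_wr (t u v : K) : fieldHom K m σ (wr m t u v) = wr m (σ t) (σ u) (σ v) :=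
  Subtype.ext (fG_WR m σ t u v)

theorem fieldHom_hm : fieldHom K m σ (hmG K m) = hmG K m := Subtype.ext (fG_hm σ)

theorem fieldHom_nG : fieldHom K m σ (nG K m) = nG K m := Subtype.ext (fG_nJ σ)

include hK in
theorem fieldHom_TG {a : ↥G¹} (ha : a ∈ TG K m) : fieldHom K m σ a ∈ TG K m := by
  obtain ⟨s, hs, h⟩ := torus_split m hK ((mem_TG m).1 ha)
  rw [mem_TG, coe_fieldHom]
  have hs' : σ s ≠ 0 := (map_ne_zero σ).2 hs
  rcases h with h | h
  · rw [h, fG_hG]; exact hG_mem_H1 m hK hs'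
  · rw [h, map_mul, fG_hG, fG_hm]; exact mul_mem (hm_mem_H1 m hK) (hG_mem_H1 m hK hs')

theorem fieldHom_pos {x : ↥G¹} (hx : x ∈ posSet K m) : fieldHom K m σ x ∈ posSet K m :=
  SG.glMap_pos _ hx

end CfsgLib.Chev.Ree
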