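import Cfsg.Agent.Chev.Ree.TorusCentralizer

/-! The small Ree groups are generated by two elements. -/

set_option autoImplicit false
set_option maxRecDepth 100000
set_option linter.style.haveILetI false
set_option linter.unusedSectionVars false

namespace CfsgLib.Chev.Ree

open Cfsg.Lie CfsgLib.Chev Matrix

universe u

variable {K : Type u} [Field K] [Finite K] [CharP K 3] (m : ℕ)

local notation "θ" => (3 ^ m : ℕ)
local notation "G¹" => twistedG2 K (3 ^ m)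

variable (hK : Nat.card K = 3 ^ (2 * m + 1))

include hK in
/-- An additively closed set containing a big orbit is everything. -/
theorem eq_univ_of_orbit {S : Set K} (h0 : (0 : K) ∈ S) (hadd : ∀ x ∈ S, ∀ y ∈ S, x + y ∈ S) {l : Kˣ} {c : K}
    (hc : c ≠ 0) (hl : 3 ^ (2 * m + 1) - 1 ≤ 2 * orderOf l) (horb : ∀ k : ℕ, (l : K) ^ k * c ∈ S) (x : K) :
    x ∈ S := by
  classical
  let A : AddSubgroup K :=
    { carrier := S
      add_mem' := fun {a b} ha hb => hadd a ha b hb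
      zero_mem' := h0
      neg_mem' := fun {a} ha => by
        have h3 : (3 : K) = 0 := by exact_mod_cast CharP.cast_eq_zero K 3
        rw [show -a = a + a by linear_combination (-a) * h3]
        exact hadd a ha a ha }
  suffices hA : A = ⊤ by
    have : x ∈ A := hA ▸ AddSubgroup.mem_top x
    exact this
  have hbig : orderOf l + 1 ≤ Nat.card A := by
    let f : Option (Fin (orderOf l)) → A := fun o => o.elim 0 fun k => ⟨(l : K) ^ (k : ℕ) * c, horb k⟩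
    have hf : Function.Injective f := by
      intro a b e
      have hz : ∀ k : ℕ, (l : K) ^ k * c ≠ 0 := fun k => mul_ne_zero (pow_ne_zero _ (Units.ne_zero l)) hc
      rcases a with _ | a <;> rcases b with _ | b
      · rfl
      · exact absurd (congrArg Subtype.val e).symm (hz b)
      · exact absurd (congrArg Subtype.val e) (hz a)
      · have h : (l : K) ^ (a : ℕ) = (l : K) ^ (b : ℕ) := mul_right_cancel₀ hc (congrArg Subtype.val e)
        rw [← Units.val_pow_eq_pow_val, ← Units.val_pow_eq_pow_val, Units.val_inj] at h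
        exact congrArg some (Fin.ext ((pow_injOn_Iio_orderOf (x := l)) a.2 b.2 h))
    have := Nat.card_le_card_of_injective f hf
    rwa [Finite.card_option, Nat.card_fin] at this
  have h1 := A.card_mul_index
  rw [hK] at h1
  obtain ⟨i, -, hi⟩ := (Nat.dvd_prime_pow Nat.prime_three).1 (Dvd.intro_left _ h1 : A.index ∣ 3 ^ (2 * m + 1))
  have hq : 1 ≤ 3 ^ (2 * m + 1) := Nat.one_le_pow _ _ (by norm_num)
  rw [← AddSubgroup.index_eq_one, hi]
  rcases i with _ | i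
  · simp
  · exfalso
    rw [hi, pow_succ] at h1
    have : 1 ≤ 3 ^ i := Nat.one_le_pow _ _ (by norm_num)
    have : Nat.card A * 3 ≤ 3 ^ (2 * m + 1) := by rw [← h1]; nlinarith
    omega

include hK in
theorem exponents_gcd : Nat.gcd (3 ^ (2 * m + 1) - 1) (3 * θ) ≤ 2 ∧
    Nat.gcd (3 ^ (2 * m + 1) - 1) (3 * θ + 3) ≤ 2 ∧ Nat.gcd (3 ^ (2 * m + 1) - 1) (6 * θ + 3) ≤ 2 := by
  have hq : 1 ≤ 3 ^ (2 * m + 1) := Nat.one_le_pow _ _ (by norm_num)
  have hqz : ((3 ^ (2 * m + 1) - 1 : ℕ) : ℤ) = 3 * ((3 ^ m : ℕ) : ℤ) ^ 2 - 1 := by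
    rw [Nat.cast_sub hq]; push_cast; ring
  have h3 : ∀ d : ℕ, d ∣ 3 ^ (2 * m + 1) - 1 → Nat.Coprime d 3 := by
    intro d hd
    rw [Nat.coprime_comm, Nat.prime_three.coprime_iff_not_dvd]
    intro h
    have h' := h.trans hd
    have : (3 : ℕ) ∣ 3 ^ (2 * m + 1) := dvd_pow_self 3 (by omega)
    omega
  refine ⟨?_, ?_, ?_⟩
  · set d := Nat.gcd (3 ^ (2 * m + 1) - 1) (3 * θ)
    have h := Nat.Coprime.eq_one_of_dvd ((h3 d (Nat.gcd_dvd_left _ _)).pow_right (m + 1))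
      ((Nat.gcd_dvd_right _ _).trans (dvd_of_eq (by rw [pow_succ']) : 3 * θ ∣ 3 ^ (m + 1)))
    omega
  · set d := Nat.gcd (3 ^ (2 * m + 1) - 1) (3 * θ + 3)
    have h1 : d ∣ θ + 1 := (h3 d (Nat.gcd_dvd_left _ _)).dvd_of_dvd_mul_left (by
      rw [mul_add, mul_one]; exact Nat.gcd_dvd_right _ _)
    have h2 : (d : ℤ) ∣ 2 := by
      have a := Int.natCast_dvd_natCast.2 (Nat.gcd_dvd_left (3 ^ (2 * m + 1) - 1) (3 * θ + 3))
      rw [hqz] at a
      have b := Int.natCast_dvd_natCast.2 h1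
      push_cast at a b
      have := dvd_sub a (b.mul_right (3 * ((3 : ℤ) ^ m - 1)))
      rwa [show 3 * ((3 : ℤ) ^ m) ^ 2 - 1 - ((3 : ℤ) ^ m + 1) * (3 * ((3 : ℤ) ^ m - 1)) = 2 by ring] at this
    exact Nat.le_of_dvd (by norm_num) (by exact_mod_cast h2)
  · set d := Nat.gcd (3 ^ (2 * m + 1) - 1) (6 * θ + 3)
    have h1 : d ∣ 2 * θ + 1 := (h3 d (Nat.gcd_dvd_left _ _)).dvd_of_dvd_mul_left (by
      rw [mul_add, mul_one, ← mul_assoc]; exact Nat.gcd_dvd_right _ _)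
    have h2 : (d : ℤ) ∣ 1 := by
      have a := Int.natCast_dvd_natCast.2 (Nat.gcd_dvd_left (3 ^ (2 * m + 1) - 1) (6 * θ + 3))
      rw [hqz] at a
      have b := Int.natCast_dvd_natCast.2 h1
      push_cast at a b
      have := dvd_sub (b.mul_right (6 * ((3 : ℤ) ^ m) - 3)) (a.mul_left 4)
      rwa [show (2 * (3 : ℤ) ^ m + 1) * (6 * (3 : ℤ) ^ m - 3) - 4 * (3 * ((3 : ℤ) ^ m) ^ 2 - 1) = 1 by ring] at this
    have := Nat.le_of_dvd Nat.one_pos (show d ∣ 1 by exact_mod_cast h2)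
    omega

theorem WR_shift (u v : K) : (WR m (1 : K) 0 0)⁻¹ * WR m 0 u v * WR m 1 0 0 = WR m 0 u (v - u) := by
  have hX : ∀ a b : K, WR m 0 a b = X (a ^ θ) (b ^ θ) a b := fun a b => by
    simp [WR, W, X, zero_pow (theta_ne_zero m), Sys.xU_zero]
  have ha : WR m (1 : K) 0 0 = W (1 : K) 1 1 1 0 0 := by
    simp [WR, zero_pow (theta_ne_zero m)]
  rw [mul_assoc, inv_mul_eq_iff_eq_mul, ha, hX, hX, a_shift, sub_add_cancel,
    show (v - u) ^ θ + u ^ θ = v ^ θ by rw [← add_pow_theta m, sub_add_cancel]]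

include hK in
/-- Two generators. -/
theorem two_generated (hm1 : 1 ≤ m) : ∃ a b : ↥G¹, Subgroup.closure ({a, b} : Set ↥G¹) = ⊤ := by
  classical
  have hq3 : 3 ≤ 3 ^ (2 * m + 1) := Nat.le_self_pow (by omega) 3
  obtain ⟨c, hc⟩ := IsCyclic.exists_generator (α := Kˣ)
  obtain ⟨z, hz0, hzH, hzG⟩ := exists_coord m hK c
  have ho : orderOf c = 3 ^ (2 * m + 1) - 1 := by
    rw [orderOf_eq_card_of_forall_mem_zpowers hc, Nat.card_units, hK]
  have hz1 : z 1 = c ^ (3 * θ) := Units.ext (by rw [coord_eq m hK hzH, hz0, Units.val_pow_eq_pow_val])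
  have e6 : SG.chi z 6 = c ^ (3 * θ) := by rw [chi6, hz1]
  have e10 : SG.chi z 10 = c ^ (3 * θ + 3) := by rw [chi10, hz1, hz0, ← pow_add, add_comm]
  have e11 : SG.chi z 11 = c ^ (6 * θ + 3) := by
    rw [chi11, hz1, hz0, ← pow_mul, ← pow_add]; congr 1; ring
  obtain ⟨g6, g10, g11⟩ := exponents_gcd (K := K) m hK
  have hbig : ∀ e : ℕ, e ≠ 0 → Nat.gcd (3 ^ (2 * m + 1) - 1) e ≤ 2 → 3 ^ (2 * m + 1) - 1 ≤ 2 * orderOf (c ^ e) := by
    intro e he hg
    rw [orderOf_pow' c he, ho]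
    exact (Nat.div_mul_cancel (Nat.gcd_dvd_left (3 ^ (2 * m + 1) - 1) e)).symm.le.trans
      ((Nat.mul_le_mul_left ((3 ^ (2 * m + 1) - 1) / Nat.gcd (3 ^ (2 * m + 1) - 1) e) hg).trans (mul_comm _ _).le)
  set a : ↥G¹ := ⟨SG.dg z, hzG⟩ with ha
  have haT : a ∈ TG K m := (mem_TG m).2 hzH
  -- conjugation by the torus generator
  have hconj : ∀ t u v : K, a * ⟨WR m t u v, WR_mem m t u v⟩ * a⁻¹ =
      ⟨WR m ((SG.chi z 6 : K) * t) ((SG.chi z 10 : K) * u) ((SG.chi z 11 : K) * v), WR_mem m _ _ _⟩ :=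
    fun t u v => Subtype.ext (torus_conj_WR m hK hzH t u v)
  -- a suitable element
  obtain ⟨e, het, ε, hε⟩ : ∃ e : ↥G¹, (∃ u : K, (e : GL chevG2.Idx K) = WR m 1 u 0) ∧
      ∃ ε : K × K, ε.1 ≠ 0 ∧
        (e : GL chevG2.Idx K) * (hm K * (e : GL chevG2.Idx K) * (hm K)⁻¹) = WR m 0 ε.1 ε.2 := by
    obtain ⟨u₀, v₀, h0⟩ := coord_mul m hK (1 : K) 0 0 (-1) 0 0
    rw [add_neg_cancel] at h0
    have hm1 : hm K * WR m (1 : K) 0 0 * (hm K)⁻¹ = WR m (-1) 0 0 := by rw [hm_conj_WR m hK, neg_zero]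
    by_cases hu : u₀ = 0
    · refine ⟨⟨WR m 1 1 0, WR_mem m 1 1 0⟩, ⟨1, rfl⟩, (2, v₀ + 1), two_ne_zero' (K := K), ?_⟩
      have hy : WR m (1 : K) 1 0 = WR m 1 0 0 * WR m 0 1 0 := by
        rw [WR_one_eq, WR_one_eq]
        simp [WR, W, X, zero_pow (theta_ne_zero m), Sys.xU_zero, mul_assoc]
      show WR m (1 : K) 1 0 * (hm K * WR m 1 1 0 * (hm K)⁻¹) = _
      have hy' : hm K * WR m (0 : K) 1 0 * (hm K)⁻¹ = WR m 0 1 0 := by rw [hm_conj_WR m hK, neg_zero]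
      have hy'' : (hm K * WR m (1 : K) 0 0 * (hm K)⁻¹)⁻¹ * WR m 0 1 0 * (hm K * WR m (1 : K) 0 0 * (hm K)⁻¹) =
          WR m 0 1 1 := by
        calc _ = hm K * ((WR m (1 : K) 0 0)⁻¹ * ((hm K)⁻¹ * WR m 0 1 0 * hm K) * WR m 1 0 0) * (hm K)⁻¹ := by group
          _ = hm K * ((WR m (1 : K) 0 0)⁻¹ * WR m 0 1 0 * WR m 1 0 0) * (hm K)⁻¹ := by
            congr 3
            nth_rewrite 1 [← hy']
            group
          _ = WR m 0 1 1 := by rw [WR_shift, hm_conj_WR m hK, neg_zero, zero_sub, neg_neg]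
      rw [hy, show hm K * (WR m 1 0 0 * WR m 0 1 0) * (hm K)⁻¹ =
        (hm K * WR m (1 : K) 0 0 * (hm K)⁻¹) * (hm K * WR m 0 1 0 * (hm K)⁻¹) by group, hy']
      calc WR m (1 : K) 0 0 * WR m 0 1 0 * (hm K * WR m 1 0 0 * (hm K)⁻¹ * WR m 0 1 0)
          = WR m 1 0 0 * (hm K * WR m 1 0 0 * (hm K)⁻¹) *
            ((hm K * WR m (1 : K) 0 0 * (hm K)⁻¹)⁻¹ * WR m 0 1 0 * (hm K * WR m (1 : K) 0 0 * (hm K)⁻¹)) *
              WR m 0 1 0 := by group
        _ = WR m 0 2 (v₀ + 1) := by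
            rw [hy'', hm1, h0, hu, WR_add, WR_add]; ring_nf
    · exact ⟨⟨WR m 1 0 0, WR_mem m 1 0 0⟩, ⟨0, rfl⟩, (u₀, v₀), hu, by rw [hm1, h0]⟩
  obtain ⟨u₁, het⟩ := het
  obtain ⟨hε1, hε⟩ := hε
  -- a commutator with the torus generator
  have hinj : Function.Injective fun y : K × K × K =>
      (⟨WR m y.1 y.2.1 y.2.2, WR_mem m _ _ _⟩ : ↥G¹) * (a * ⟨WR m y.1 y.2.1 y.2.2, WR_mem m _ _ _⟩⁻¹ * a⁻¹) := by
    intro y y' h
    have h' : (⟨WR m y'.1 y'.2.1 y'.2.2, WR_mem m _ _ _⟩ : ↥G¹)⁻¹ * ⟨WR m y.1 y.2.1 y.2.2, WR_mem m _ _ _⟩ =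
        a * ((⟨WR m y'.1 y'.2.1 y'.2.2, WR_mem m _ _ _⟩ : ↥G¹)⁻¹ * ⟨WR m y.1 y.2.1 y.2.2, WR_mem m _ _ _⟩) * a⁻¹ := by
      calc _ = (⟨WR m y'.1 y'.2.1 y'.2.2, WR_mem m _ _ _⟩ : ↥G¹)⁻¹ *
            ((⟨WR m y.1 y.2.1 y.2.2, WR_mem m _ _ _⟩ : ↥G¹) * (a * ⟨WR m y.1 y.2.1 y.2.2, WR_mem m _ _ _⟩⁻¹ * a⁻¹)) *
              (a * ⟨WR m y.1 y.2.1 y.2.2, WR_mem m _ _ _⟩ * a⁻¹) := by group
        _ = _ := by dsimp only at h; rw [h]; group
    obtain ⟨t, u, v, e⟩ := exists_WR m hK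
      (g := (((⟨WR m y'.1 y'.2.1 y'.2.2, WR_mem m _ _ _⟩ : ↥G¹)⁻¹ * ⟨WR m y.1 y.2.1 y.2.2, WR_mem m _ _ _⟩ : ↥G¹) : GL chevG2.Idx K))
      (mul_mem (inv_mem (W_mem _ _ _ _ _ _)) (W_mem _ _ _ _ _ _))
      (mul_mem (inv_mem (WR_fixed m hK _ _ _)) (WR_fixed m hK _ _ _))
    have e' : (⟨WR m y'.1 y'.2.1 y'.2.2, WR_mem m _ _ _⟩ : ↥G¹)⁻¹ * ⟨WR m y.1 y.2.1 y.2.2, WR_mem m _ _ _⟩ =
        ⟨WR m t u v, WR_mem m t u v⟩ := Subtype.ext e
    rw [e', hconj] at h'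
    obtain ⟨h1, h2, h3⟩ := WR_inj m (congrArg Subtype.val h')
    have hfix : ∀ (l : Kˣ) (x : K), l ≠ 1 → x = (l : K) * x → x = 0 := fun l x hl hx => by
      have : ((l : K) - 1) * x = 0 := by linear_combination -hx
      exact (mul_eq_zero.1 this).resolve_left (sub_ne_zero.2 (fun h => hl (Units.val_eq_one.1 h)))
    have hne : ∀ k : ℕ, k ≠ 0 → Nat.gcd (3 ^ (2 * m + 1) - 1) k ≤ 2 → c ^ k ≠ 1 := fun k hk hg h => by
      have hd := orderOf_dvd_of_pow_eq_one h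
      rw [ho] at hd
      have := Nat.gcd_eq_left hd
      have : 3 ^ 3 ≤ 3 ^ (2 * m + 1) := Nat.pow_le_pow_right (by norm_num) (by omega)
      omega
    rw [hfix _ t (e6 ▸ hne _ (by positivity) g6) h1, hfix _ u (e10 ▸ hne _ (by omega) g10) h2,
      hfix _ v (e11 ▸ hne _ (by omega) g11) h3] at e'
    have e'' := congrArg Subtype.val (inv_mul_eq_one.1 (e'.trans (Subtype.ext (WR_zero m) : (⟨WR m (0 : K) 0 0, WR_mem m 0 0 0⟩ : ↥G¹) = 1)))
    obtain ⟨i1, i2, i3⟩ := WR_inj m e''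
    exact Prod.ext i1.symm (Prod.ext i2.symm i3.symm)
  obtain ⟨y, hy⟩ : ∃ y : K × K × K, (⟨WR m y.1 y.2.1 y.2.2, WR_mem m _ _ _⟩ : ↥G¹) *
      (a * ⟨WR m y.1 y.2.1 y.2.2, WR_mem m _ _ _⟩⁻¹ * a⁻¹) = e := by
    have himg : ∀ y : K × K × K, ∃ w : K × K × K, (⟨WR m y.1 y.2.1 y.2.2, WR_mem m _ _ _⟩ : ↥G¹) *
        (a * ⟨WR m y.1 y.2.1 y.2.2, WR_mem m _ _ _⟩⁻¹ * a⁻¹) = ⟨WR m w.1 w.2.1 w.2.2, WR_mem m _ _ _⟩ := by
      intro y
      obtain ⟨t, u, v, e⟩ := exists_WR m hK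
        (g := WR m y.1 y.2.1 y.2.2 * (SG.dg z * (WR m y.1 y.2.1 y.2.2)⁻¹ * (SG.dg z)⁻¹))
        (mul_mem (W_mem _ _ _ _ _ _) (SG.dg_conj_pos z (inv_mem (W_mem _ _ _ _ _ _))))
        (mul_mem (WR_fixed m hK _ _ _) (mul_mem (mul_mem (Subgroup.mem_inf.1 hzH).2 (inv_mem (WR_fixed m hK _ _ _)))
          (inv_mem (Subgroup.mem_inf.1 hzH).2)))
      exact ⟨(t, u, v), Subtype.ext e⟩
    choose w hw using himg
    have hwinj : Function.Injective w := fun p p' h => hinj (by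
      show _ * _ = _ * _
      rw [hw p, hw p', h])
    obtain ⟨y, hy⟩ := Finite.injective_iff_surjective.1 hwinj (1, u₁, 0)
    exact ⟨y, by rw [hw y, hy]; exact Subtype.ext het.symm⟩
  set x : ↥G¹ := ⟨WR m y.1 y.2.1 y.2.2, WR_mem m _ _ _⟩
  set b : ↥G¹ := nG K m * x with hb
  refine ⟨a, b, ?_⟩
  set H := Subgroup.closure ({a, b} : Set ↥G¹)
  have haH : a ∈ H := Subgroup.subset_closure (by simp)
  have hbH : b ∈ H := Subgroup.subset_closure (by simp)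
  have hn2 : (nG K m)⁻¹ = nG K m := Subtype.ext (nJ_inv m hK)
  set P := H.comap (MulAut.conj (nG K m)).toMonoidHom with hP
  have hPmem : ∀ g, g ∈ P ↔ nG K m * g * (nG K m)⁻¹ ∈ H := fun g => Iff.rfl
  have hPe : e ∈ P := by
    rw [hPmem, ← hy, show nG K m * (x * (a * x⁻¹ * a⁻¹)) * (nG K m)⁻¹ =
      nG K m * x * a * (nG K m * x)⁻¹ * (nG K m * a * (nG K m)⁻¹)⁻¹ by group, nG_conj m hK haT, inv_inv, ← hb]
    exact mul_mem (mul_mem (mul_mem hbH haH) (inv_mem hbH)) haH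
  have hPa : ∀ (g : ↥G¹) (k : ℕ), g ∈ P → a ^ k * g * (a ^ k)⁻¹ ∈ P := fun g k hg => by
    rw [hPmem] at hg ⊢
    rw [show nG K m * (a ^ k * g * (a ^ k)⁻¹) * (nG K m)⁻¹ = (nG K m * a ^ k * (nG K m)⁻¹) *
      (nG K m * g * (nG K m)⁻¹) * (nG K m * a ^ k * (nG K m)⁻¹)⁻¹ by group, nG_conj m hK (pow_mem haT k)]
    exact mul_mem (mul_mem (inv_mem (pow_mem haH k)) hg) (inv_mem (inv_mem (pow_mem haH k)))
  have hpow : ∀ (t u v : K) (k : ℕ), a ^ k * ⟨WR m t u v, WR_mem m t u v⟩ * (a ^ k)⁻¹ =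
      ⟨WR m ((SG.chi z 6 : K) ^ k * t) ((SG.chi z 10 : K) ^ k * u) ((SG.chi z 11 : K) ^ k * v), WR_mem m _ _ _⟩ := by
    intro t u v k
    induction k with
    | zero => simp
    | succ k ih =>
      rw [show a ^ (k + 1) * (⟨WR m t u v, WR_mem m t u v⟩ : ↥G¹) * (a ^ (k + 1))⁻¹ =
        a * (a ^ k * ⟨WR m t u v, WR_mem m t u v⟩ * (a ^ k)⁻¹) * a⁻¹ by rw [pow_succ']; group, ih, hconj]
      exact Subtype.ext (by rw [pow_succ', pow_succ', pow_succ', mul_assoc, mul_assoc, mul_assoc])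
  -- the central layer
  have hZ : ∀ v : K, (⟨WR m 0 0 v, WR_mem m 0 0 v⟩ : ↥G¹) ∈ P := by
    have h2 : (⟨WR m 0 0 (2 : K), WR_mem m 0 0 2⟩ : ↥G¹) ∈ P := by
      have hcube : e * e * e = (⟨WR m 0 0 (2 : K), WR_mem m 0 0 2⟩ : ↥G¹) := Subtype.ext (by
        show (e : GL chevG2.Idx K) * (e : GL chevG2.Idx K) * (e : GL chevG2.Idx K) = WR m (0 : K) 0 2
        rw [het]; exact WR_one_cube m hK u₁ 0)
      exact hcube ▸ mul_mem (mul_mem hPe hPe) hPe
    intro v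
    refine eq_univ_of_orbit m hK (S := {v : K | (⟨WR m 0 0 v, WR_mem m 0 0 v⟩ : ↥G¹) ∈ P}) ?_ ?_
      (two_ne_zero' (K := K)) (hbig _ (by omega) g11) (fun k => ?_) v
    · rw [Set.mem_setOf_eq, show (⟨WR m (0 : K) 0 0, WR_mem m 0 0 0⟩ : ↥G¹) = 1 from Subtype.ext (WR_zero m)]
      exact one_mem _
    · intro p hp q hq
      rw [Set.mem_setOf_eq] at hp hq ⊢
      convert mul_mem hp hq using 1
      exact Subtype.ext (by show WR m 0 0 (p + q) = WR m 0 0 p * WR m 0 0 q; rw [WR_add, add_zero])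
    · have := hPa _ k h2
      rw [hpow, e11] at this
      simpa using this
  -- the middle layer
  have hY : ∀ u v : K, (⟨WR m 0 u v, WR_mem m 0 u v⟩ : ↥G¹) ∈ P := by
    have hεP : (⟨WR m 0 ε.1 ε.2, WR_mem m 0 ε.1 ε.2⟩ : ↥G¹) ∈ P := by
      have hh : hmG K m * e * (hmG K m)⁻¹ ∈ P := by
        obtain ⟨k, hk⟩ : hmG K m ∈ Submonoid.powers a := by
          rw [(isOfFinOrder_of_finite a).mem_powers_iff_mem_zpowers]
          have : Subgroup.zpowers a = TG K m := Subgroup.eq_of_le_of_card_ge (Subgroup.zpowers_le.2 haT) (by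
            rw [Nat.card_zpowers, card_TG m hK]
            have hdvd : orderOf c ∣ orderOf a := orderOf_dvd_of_pow_eq_one (by
              have h := congrArg Subtype.val (pow_orderOf_eq_one a)
              rw [SubmonoidClass.coe_pow, ha] at h
              have h6 : (SG.chi z 6 : K) ^ orderOf a = 1 := by
                have := congrArg Subtype.val (hpow 1 0 0 (orderOf a))
                rw [pow_orderOf_eq_one, one_mul, inv_one, mul_one, mul_one] at this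
                exact (WR_inj m this).1.symm
              rw [e6, Units.val_pow_eq_pow_val, ← pow_mul, ← Units.val_pow_eq_pow_val, Units.val_eq_one] at h6
              have hd := orderOf_dvd_of_pow_eq_one h6
              rw [ho] at hd
              rw [← orderOf_dvd_iff_pow_eq_one, ho]
              refine Nat.Coprime.dvd_of_dvd_mul_left ?_ hd
              have h8 := q_mod_eight (K := K) m hK
              rw [Nat.coprime_iff_gcd_eq_one]
              have hle := g6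
              have hd2 := Nat.gcd_dvd_left (3 ^ (2 * m + 1) - 1) (3 * θ)
              have hd3 := Nat.gcd_dvd_right (3 ^ (2 * m + 1) - 1) (3 * θ)
              rcases (show Nat.gcd (3 ^ (2 * m + 1) - 1) (3 * θ) = 1 ∨ Nat.gcd (3 ^ (2 * m + 1) - 1) (3 * θ) = 2 by
                have := Nat.gcd_pos_of_pos_right (3 ^ (2 * m + 1) - 1) (show 0 < 3 * θ by positivity)
                omega) with h | h
              · exact h
              · rw [h] at hd3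
                have : Odd (3 * θ) := Odd.mul (by decide) (Odd.pow (by decide))
                exact absurd (even_iff_two_dvd.2 hd3) (Nat.not_even_iff_odd.2 this))
            exact Nat.le_of_dvd (orderOf_pos a) (ho ▸ hdvd))
          rw [this]
          exact hmG_mem_TG m hK
        rw [← hk]; exact hPa e k hPe
      have hee : e * (hmG K m * e * (hmG K m)⁻¹) = (⟨WR m 0 ε.1 ε.2, WR_mem m 0 ε.1 ε.2⟩ : ↥G¹) := Subtype.ext hε
      exact hee ▸ mul_mem hPe hh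
    intro u v
    have hu : u ∈ {u : K | ∃ v, (⟨WR m 0 u v, WR_mem m 0 u v⟩ : ↥G¹) ∈ P} := by
      refine eq_univ_of_orbit m hK (S := {u : K | ∃ v, (⟨WR m 0 u v, WR_mem m 0 u v⟩ : ↥G¹) ∈ P}) ⟨0, hZ 0⟩ ?_ hε1 (hbig _ (by omega) g10) (fun k => ?_) u
      · rintro p ⟨v, hp⟩ q ⟨w, hq⟩
        refine ⟨v + w, ?_⟩
        convert mul_mem hp hq using 1
        exact Subtype.ext (by show WR m 0 (p + q) (v + w) = WR m 0 p v * WR m 0 q w; rw [WR_add])
      · refine ⟨(SG.chi z 11 : K) ^ k * ε.2, ?_⟩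
        have := hPa _ k hεP
        rw [hpow, e10] at this
        simpa using this
    obtain ⟨v', hv'⟩ := hu
    convert mul_mem hv' (hZ (v - v')) using 1
    exact Subtype.ext (by show WR m 0 u v = WR m 0 u v' * WR m 0 0 (v - v'); rw [WR_add, add_zero, add_sub_cancel])
  -- the whole unipotent group
  have hU : ∀ t u v : K, (⟨WR m t u v, WR_mem m t u v⟩ : ↥G¹) ∈ P := by
    intro t u v
    have ht : t ∈ {t : K | ∃ u v, (⟨WR m t u v, WR_mem m t u v⟩ : ↥G¹) ∈ P} := by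
      refine eq_univ_of_orbit m hK (S := {t : K | ∃ u v, (⟨WR m t u v, WR_mem m t u v⟩ : ↥G¹) ∈ P}) ⟨0, 0, hZ 0⟩ ?_ one_ne_zero (hbig _ (by positivity) g6) (fun k => ?_) t
      · rintro p ⟨u, v, hp⟩ q ⟨u', v', hq⟩
        obtain ⟨u'', v'', h⟩ := coord_mul m hK p u v q u' v'
        refine ⟨u'', v'', ?_⟩
        convert mul_mem hp hq using 1
        exact Subtype.ext h.symm
      · refine ⟨(SG.chi z 10 : K) ^ k * u₁, 0, ?_⟩
        have he' : e = (⟨WR m 1 u₁ 0, WR_mem m 1 u₁ 0⟩ : ↥G¹) := Subtype.ext het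
        have := hPa _ k hPe
        rw [he', hpow, e6] at this
        simpa using this
    obtain ⟨u', v', h'⟩ := ht
    obtain ⟨t₃, u₃, v₃, e3⟩ := exists_WR m hK (g := (WR m t u' v')⁻¹ * WR m t u v)
      (mul_mem (inv_mem (W_mem _ _ _ _ _ _)) (W_mem _ _ _ _ _ _))
      (mul_mem (inv_mem (WR_fixed m hK _ _ _)) (WR_fixed m hK _ _ _))
    obtain ⟨u₄, v₄, e4⟩ := coord_mul m hK t u' v' t₃ u₃ v₃
    rw [← e3, mul_inv_cancel_left] at e4
    have h3 : t₃ = 0 := by linear_combination -(WR_inj m e4).1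
    subst h3
    convert mul_mem h' (hY u₃ v₃) using 1
    exact Subtype.ext (by show WR m t u v = WR m t u' v' * WR m 0 u₃ v₃; rw [← e3, mul_inv_cancel_left])
  have hpos : ∀ t u v : K, (⟨WR m t u v, WR_mem m t u v⟩ : ↥G¹) ∈ H := by
    intro t u v
    have hxi : ∀ w : ↥G¹, (w : GL chevG2.Idx K) ∈ chevG2.posUnipotent K → w ∈ P := by
      intro w hw
      obtain ⟨t, u, v, e⟩ := (mem_pos_inf m hK).1 (Subgroup.mem_inf.2 ⟨hw, w.2⟩)
      rw [show w = ⟨WR m t u v, WR_mem m t u v⟩ from Subtype.ext e]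
      exact hU t u v
    have h := (hPmem _).1 (hxi (x * ⟨WR m t u v, WR_mem m t u v⟩ * x⁻¹)
      (mul_mem (mul_mem (W_mem _ _ _ _ _ _) (W_mem _ _ _ _ _ _)) (inv_mem (W_mem _ _ _ _ _ _))))
    have e' : (⟨WR m t u v, WR_mem m t u v⟩ : ↥G¹) =
        b⁻¹ * (nG K m * (x * ⟨WR m t u v, WR_mem m t u v⟩ * x⁻¹) * (nG K m)⁻¹) * b := by rw [hb]; group
    rw [e']
    exact mul_mem (mul_mem (inv_mem hbH) h) hbH
  refine (Subgroup.eq_top_iff' H).2 fun g => ?_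
  obtain ⟨g, hg⟩ := g
  induction hg using Subgroup.closure_induction with
  | mem g hg =>
    obtain ⟨w, ⟨t, u, v, hw | hw⟩, hgw⟩ := hg
    · convert hpos t u v using 1
      exact Subtype.ext (Units.ext (by rw [hgw, hw, coe_WR]))
    · convert (hPmem _).1 (hU t u v) using 1
      refine Subtype.ext (Units.ext ?_)
      show _ = ((nJ K * WR m t u v * (nJ K)⁻¹ : GL chevG2.Idx K) : Matrix chevG2.Idx chevG2.Idx K)
      rw [hgw, hw, coe_conj_WR]
  | one => exact one_mem _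
  | mul x y hx hy ihx ihy => exact mul_mem ihx ihy
  | inv x hx ih => exact inv_mem ih

end CfsgLib.Chev.Ree
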