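import Cfsg.Agent.Chev.Ree.Field
import Cfsg.Agent.Chev.Ree.TwoGen

/-! A normalised automorphism of a small Ree group which is the identity on `U / U'` is trivial. -/

set_option autoImplicit false
set_option maxRecDepth 100000
set_option linter.style.haveILetI false
set_option linter.unusedSectionVars false

namespace CfsgLib.Chev.Ree

open Cfsg.Lie CfsgLib.Chev Matrix

universe u

variable {K : Type u} [Field K] [Finite K] [CharP K 3] (m : ℕ)

local notation "θ" => (3 ^ m : ℕ)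
local notation "G¹" => twistedG2 K (3 ^ m)
local notation "qq" => (3 ^ (2 * m + 1) : ℕ)

variable (hK : Nat.card K = 3 ^ (2 * m + 1))

include hK in
theorem orbit_big {c : Kˣ} (hc : orderOf c = qq - 1) {e : ℕ} (he : e ≠ 0)
    (hg : Nat.gcd (qq - 1) e ≤ 2) : qq - 1 ≤ 2 * orderOf (c ^ e) := by
  rw [orderOf_pow' c he, hc]
  exact (Nat.div_mul_cancel (Nat.gcd_dvd_left (qq - 1) e)).symm.le.trans
    ((Nat.mul_le_mul_left ((qq - 1) / Nat.gcd (qq - 1) e) hg).trans (mul_comm _ _).le)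

include hK in
theorem torus_elt (c : Kˣ) : ∃ a ∈ TG K m, ∀ t u v : K, a * wr m t u v * a⁻¹ =
    wr m ((c : K) ^ (3 * θ) * t) ((c : K) ^ (3 * θ + 3) * u) ((c : K) ^ (6 * θ + 3) * v) := by
  refine ⟨⟨(torus K m hK c : GL chevG2.Idx K), H1_le m hK (torus K m hK c).2⟩, (mem_TG m).2 (torus K m hK c).2, ?_⟩
  obtain ⟨d, hd, hform⟩ := torus_form m hK (a := ⟨(torus K m hK c : GL chevG2.Idx K), H1_le m hK (torus K m hK c).2⟩)
    ((mem_TG m).2 (torus K m hK c).2)
  rw [← (torus K m hK).injective (Subtype.ext hd)] at hform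
  exact hform

include hK in
theorem exists_nontrivial_unit (hm1 : 1 ≤ m) : ∃ c : Kˣ, c ^ (3 * θ) ≠ c ∧ c ≠ 1 := by
  obtain ⟨-, hlt, hpos⟩ := char_facts (K := K) m hK hm1
  obtain ⟨c, hc⟩ := IsCyclic.exists_generator (α := Kˣ)
  have ho : orderOf c = qq - 1 := by
    rw [orderOf_eq_card_of_forall_mem_zpowers hc, Nat.card_units, hK]
  refine ⟨c, fun h => ?_, fun h => ?_⟩
  · rw [show 3 * θ = 3 * θ - 1 + 1 by omega, pow_succ, mul_eq_right] at h
    have := Nat.le_of_dvd hpos (orderOf_dvd_of_pow_eq_one h)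
    omega
  · rw [h, orderOf_one] at ho
    omega

include hK in
theorem rigid (hm1 : 1 ≤ m) (δ : MulAut ↥G¹) (hU : ∀ x ∈ posSet K m, δ x ∈ posSet K m)
    (hT : ∀ a ∈ TG K m, δ a ∈ TG K m) (hA : ∀ t, ∃ u v, δ (wr m t 0 0) = wr m t u v) : δ = 1 := by
  classical
  obtain ⟨g6, g10, g11⟩ := exponents_gcd (K := K) m hK
  -- the torus is fixed
  have hTfix : ∀ a ∈ TG K m, δ a = a := by
    intro a ha
    obtain ⟨c, hc, hform⟩ := torus_form m hK ha
    obtain ⟨d, hd, hform'⟩ := torus_form m hK (hT a ha)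
    obtain ⟨u₁, v₁, h1⟩ := hA 1
    obtain ⟨u₂, v₂, h2⟩ := hA ((c : K) ^ (3 * θ))
    have h := congrArg δ (hform 1 0 0)
    rw [map_mul, map_mul, map_inv, h1, hform', mul_one, mul_one, mul_zero, mul_zero, h2] at h
    have e : (d : K) ^ (3 * θ) = (c : K) ^ (3 * θ) := (wr_inj m h).1
    rw [← Units.val_pow_eq_pow_val, ← Units.val_pow_eq_pow_val, Units.val_inj] at e
    exact Subtype.ext (by rw [hd, hc, units_pow_inj m hK e])
  have hhm : δ (hmG K m) = hmG K m := hTfix _ (hmG_mem_TG m hK)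
  obtain ⟨a, c, haT, hoc, -, -, hform⟩ := exists_torus_gen (K := K) m hK hm1
  have hconj : ∀ b ∈ TG K m, ∀ x, δ (b * x * b⁻¹) = b * δ x * b⁻¹ := fun b hb x => by
    rw [map_mul, map_mul, map_inv, hTfix b hb]
  -- the centre of the unipotent group
  have hZ : ∀ v, δ (wr m 0 0 v) = wr m 0 0 v := by
    have h2 : δ (wr m (0 : K) 0 2) = wr m (0 : K) 0 2 := by
      have e : ∀ u v, wr m (1 : K) u v * wr m 1 u v * wr m 1 u v = wr m 0 0 2 := fun u v =>
        Subtype.ext (WR_one_cube m hK u v)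
      obtain ⟨u₁, v₁, h1⟩ := hA 1
      conv_lhs => rw [← e 0 0]
      rw [map_mul, map_mul, h1, e]
    intro v
    refine eq_univ_of_orbit m hK (S := {v : K | δ (wr m 0 0 v) = wr m 0 0 v}) ?_ ?_ (two_ne_zero' (K := K))
      (orbit_big m hK hoc (e := 6 * θ + 3) (by omega) g11) (fun k => ?_) v
    · show δ (wr m (0 : K) 0 0) = wr m 0 0 0
      rw [wr_zero, map_one]
    · intro x (hx : δ _ = _) y (hy : δ _ = _)
      show δ (wr m 0 0 (x + y)) = wr m 0 0 (x + y)
      have e : wr m 0 0 (x + y) = wr m 0 0 x * wr m 0 0 y := by rw [wr_mul_low m hK, add_zero]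
      rw [e, map_mul, hx, hy]
    · show δ (wr m 0 0 _) = wr m 0 0 _
      induction k with
      | zero => simpa using h2
      | succ k ih =>
        have e : wr m (0 : K) 0 (((c ^ (6 * θ + 3) : Kˣ) : K) ^ (k + 1) * 2) =
            a * wr m 0 0 (((c ^ (6 * θ + 3) : Kˣ) : K) ^ k * 2) * a⁻¹ := by
          rw [hform, mul_zero, mul_zero, pow_succ', Units.val_pow_eq_pow_val, mul_assoc]
        rw [e, hconj a haT, ih]
  -- the fixed points of the involution
  have hYex : ∀ u, ∃ f, δ (wr m 0 u 0) = wr m 0 f 0 := by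
    intro u
    obtain ⟨t', u', v', e⟩ := exists_wr m hK (hU _ (wr_mem_pos m 0 u 0))
    have h := congrArg δ (hm_conj_wr m hK 0 u 0)
    rw [neg_zero, map_mul, map_mul, map_inv, hhm, e, hm_conj_wr m hK] at h
    obtain ⟨h1, -, h3⟩ := wr_inj m h
    have hneg : ∀ x : K, -x = x → x = 0 := fun x hx => by
      have : (2 : K) * x = 0 := by linear_combination -hx
      exact (mul_eq_zero.1 this).resolve_left two_ne_zero'
    exact ⟨u', by rw [e, hneg t' h1, hneg v' h3]⟩
  choose f hf using hYex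
  have hfadd : ∀ x y, f (x + y) = f x + f y := by
    intro x y
    have e : wr m 0 (x + y) 0 = wr m 0 x 0 * wr m 0 y 0 := by rw [wr_mul_low m hK, add_zero]
    have h := congrArg δ e
    rw [map_mul, hf, hf, hf, wr_mul_low m hK] at h
    exact (wr_inj m h).2.1
  have hflin : ∀ l u, f (l * u) = l * f u := by
    intro l
    refine eq_univ_of_orbit m hK (S := {l : K | ∀ u, f (l * u) = l * f u}) ?_ ?_ one_ne_zero
      (orbit_big m hK hoc (e := 3 * θ + 3) (by omega) g10) (fun k => ?_) l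
    · intro u
      have h0 : f 0 = 0 := by
        have h00 := hfadd 0 0
        rw [add_zero] at h00
        linear_combination -h00
      rw [zero_mul, zero_mul, h0]
    · intro x hx y hy u
      rw [add_mul, hfadd, hx, hy, add_mul]
    · show ∀ u, _
      induction k with
      | zero => intro u; simp
      | succ k ih =>
        intro u
        have h := congrArg δ (hform 0 (((c ^ (3 * θ + 3) : Kˣ) : K) ^ k * u) 0)
        rw [mul_zero, mul_zero, hconj a haT, hf, hform, mul_zero, mul_zero, hf] at h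
        have h2 := (wr_inj m h).2.1
        rw [mul_one] at ih ⊢
        rw [← Units.val_pow_eq_pow_val] at h2
        rw [pow_succ', mul_assoc, ← h2, ih, mul_assoc]
  have hfk : ∀ u, f u = f 1 * u := fun u => by rw [mul_comm, ← hflin, mul_one]
  -- the first layer
  choose g h hgh using hA
  have hlow : ∀ u v, δ (wr m 0 u v) = wr m 0 (f 1 * u) v := by
    intro u v
    have e : wr m 0 u v = wr m 0 u 0 * wr m 0 0 v := by rw [wr_mul_low m hK, add_zero, zero_add]
    rw [e, map_mul, hf, hZ, wr_mul_low m hK, add_zero, zero_add, hfk]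
  have hprod : ∀ s t : K, g (s + t) - f 1 * (t ^ (3 * θ) * s) = g s + g t - t ^ (3 * θ) * s ∧
      h (s + t) + (t ^ (3 * θ) * s * t - t ^ (3 * θ) * s ^ 2) =
        h s + h t - t ^ (3 * θ) * s ^ 2 - (g s - t ^ (3 * θ) * s) * t := by
    intro s t
    have e : wr m s 0 0 * wr m t 0 0 =
        wr m (s + t) 0 0 * wr m 0 (-(t ^ (3 * θ) * s)) (t ^ (3 * θ) * s * t - t ^ (3 * θ) * s ^ 2) := by
      rw [wr_mul m hK, wr_mul_low m hK]
      congr 1 <;> ring
    have h1 := congrArg δ e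
    rw [map_mul, map_mul, hgh, hgh, hgh, hlow, wr_mul m hK, wr_mul_low m hK] at h1
    obtain ⟨-, e2, e3⟩ := wr_inj m h1
    exact ⟨by linear_combination -e2, by linear_combination -e3⟩
  have hk : f 1 = 1 := by
    obtain ⟨d, hd, -⟩ := exists_nontrivial_unit (K := K) m hK hm1
    have h1 := (hprod (d : K) 1).1
    have h2 := (hprod 1 (d : K)).1
    rw [one_pow, one_mul, add_comm 1 (d : K)] at *
    rw [mul_one] at h2
    have : (f 1 - 1) * ((d : K) ^ (3 * θ) - (d : K)) = 0 := by linear_combination h1 - h2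
    refine sub_eq_zero.1 ((mul_eq_zero.1 this).resolve_right (sub_ne_zero.2 fun e => hd ?_))
    exact Units.ext (by rw [Units.val_pow_eq_pow_val]; exact e)
  rw [hk] at hprod hlow
  simp only [one_mul] at hlow
  have hg0 : ∀ t, g t = 0 := by
    intro t
    have e := congrArg δ (hm_conj_wr m hK t 0 0)
    rw [map_mul, map_mul, map_inv, hhm, hgh, hm_conj_wr m hK, neg_zero, hgh] at e
    have e2 : g t = g (-t) := (wr_inj m e).2.1
    have h0 : g 0 = 0 := by
      have h00 := (hprod 0 0).1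
      rw [add_zero] at h00
      linear_combination -h00
    have h1 := (hprod t (-t)).1
    rw [add_neg_cancel, h0] at h1
    have : (2 : K) * g t = 0 := by linear_combination -h1 + e2
    exact (mul_eq_zero.1 this).resolve_left two_ne_zero'
  have hadd : ∀ s t, h (s + t) = h s + h t := fun s t => by
    have := (hprod s t).2
    rw [hg0] at this
    linear_combination this
  have hhom : ∀ x : K, h x = x ^ 2 * x ^ (3 * θ) * h 1 := by
    intro x
    rcases eq_or_ne x 0 with rfl | hx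
    · have h00 := hadd 0 0
      rw [add_zero] at h00
      have : h 0 = 0 := by linear_combination -h00
      rw [this]; ring
    obtain ⟨b, hbT, hb⟩ := torus_elt m hK ((Units.mk0 x hx) ^ θ)
    have e1 : ((Units.mk0 x hx ^ θ : Kˣ) : K) ^ (3 * θ) = x := by
      rw [← Units.val_pow_eq_pow_val, units_pow_theta m hK]; rfl
    have e2 : ((Units.mk0 x hx ^ θ : Kˣ) : K) ^ (6 * θ + 3) = x ^ 2 * x ^ (3 * θ) := by
      rw [pow_add, show 6 * θ = 3 * θ * 2 by ring, pow_mul, e1, Units.val_pow_eq_pow_val, Units.val_mk0,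
        ← pow_mul x θ 3, mul_comm θ 3]
    have e := congrArg δ (hb 1 0 0)
    rw [hconj b hbT, hgh, hb] at e
    simp only [mul_one, mul_zero] at e
    rw [e1, e2, hgh] at e
    exact (wr_inj m e).2.2.symm
  have hh0 : ∀ t, h t = 0 := by
    obtain ⟨d, hd, hd1⟩ := exists_nontrivial_unit (K := K) m hK hm1
    have e := hadd (d : K) 1
    rw [hhom ((d : K) + 1), hhom (d : K), add_pow_theta3, one_pow] at e
    have h3 : (3 : K) = 0 := three_eq_zero
    have : (((d : K) - 1) * ((d : K) - (d : K) ^ (3 * θ))) * h 1 = 0 := by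
      linear_combination e - ((d : K) ^ (3 * θ) * (d : K) + (d : K)) * h 1 * h3
    have h1 : h 1 = 0 := by
      refine (mul_eq_zero.1 this).resolve_left (mul_ne_zero (sub_ne_zero.2 fun e' => hd1 (Units.ext e'))
        (sub_ne_zero.2 fun e' => hd (Units.ext ?_)))
      rw [Units.val_pow_eq_pow_val]; exact e'.symm
    intro t
    rw [hhom, h1, mul_zero]
  have hpos : ∀ t u v, δ (wr m t u v) = wr m t u v := fun t u v => by
    have e : wr m t u v = wr m t 0 0 * wr m 0 u v := by rw [wr_mul_low m hK, zero_add, zero_add]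
    rw [e, map_mul, hgh, hlow, hg0, hh0]
  -- the monomial element
  have hn2 : nG K m * nG K m = 1 := Subtype.ext (nJ_mul_nJ m hK)
  obtain ⟨a₀, ha₀, ha₀'⟩ : ∃ x ∈ TG K m, δ (nG K m) = nG K m * x := by
    refine ⟨nG K m * δ (nG K m), ?_, by rw [← mul_assoc, hn2, one_mul]⟩
    have ha2 : a * a ≠ 1 := fun e => by
      obtain ⟨d, hd, -⟩ := torus_form m hK haT
      have h1 : orderOf a = qq - 1 := by
        have := exists_torus_gen (K := K) m hK hm1
        rw [← hoc, ← orderOf_injective (torus K m hK).toMonoidHom (MulEquiv.injective _) c]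
        obtain ⟨c', hc', hform'⟩ := torus_form m hK haT
        have h1 := (wr_inj m ((hform 1 0 0).symm.trans (hform' 1 0 0))).1
        simp only [mul_one] at h1
        rw [← Units.val_pow_eq_pow_val, ← Units.val_pow_eq_pow_val, Units.val_inj] at h1
        rw [units_pow_inj m hK h1, ← orderOf_injective (H1 K m).subtype Subtype.val_injective]
        show _ = orderOf (torus K m hK c' : GL chevG2.Idx K)
        rw [← hc']
        exact (orderOf_injective (Subgroup.subtype _) Subtype.val_injective a).symm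
      have := orderOf_dvd_of_pow_eq_one (show a ^ 2 = 1 by rw [pow_two, e])
      rw [h1] at this
      have := Nat.le_of_dvd (by norm_num) this
      obtain ⟨-, hlt, hp⟩ := char_facts (K := K) m hK hm1
      have : 3 ≤ θ := Nat.le_self_pow (by omega) 3
      omega
    rw [← centralizer_TG m hK haT ha2, Subgroup.mem_centralizer_singleton_iff]
    have h1 := congrArg δ (nG_conj m hK haT)
    rw [map_mul, map_mul, map_inv, map_inv, hTfix a haT] at h1
    have h2 : δ (nG K m) * a = a⁻¹ * δ (nG K m) := by rw [← h1]; group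
    calc nG K m * δ (nG K m) * a = nG K m * (δ (nG K m) * a) := mul_assoc _ _ _
      _ = (nG K m * a⁻¹ * (nG K m)⁻¹) * (nG K m * δ (nG K m)) := by rw [h2]; group
      _ = _ := by rw [nG_conj m hK (inv_mem haT), inv_inv]
  obtain ⟨c₀, -, hform₀⟩ := torus_form m hK ha₀
  set l : K := (c₀ : K) ^ (3 * θ + 3) with hl
  have hx : ∀ t : K, wr m 0 t 0 = (⟨xG m t, xG_mem m t⟩ : ↥G¹) := fun t => rfl
  have hh1 : (⟨hG m (1 : K), hG_mem m one_ne_zero⟩ : ↥G¹) = 1 := Subtype.ext (hG_one m hK)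
  have rel : ∀ t : K, ∀ ht : t ≠ 0, nG K m * wr m 0 t 0 * nG K m =
      wr m 0 (-t⁻¹) 0 * ⟨hG m t⁻¹, hG_mem m (inv_ne_zero ht)⟩ * nG K m * wr m 0 (-t⁻¹) 0 :=
    fun t ht => Subtype.ext (nJ_x_nJ m hK ht)
  have hl0 : l ≠ 0 := pow_ne_zero _ c₀.ne_zero
  have r1 : nG K m * wr m 0 1 0 * nG K m = wr m 0 (-1) 0 * nG K m * wr m 0 (-1) 0 := by
    have h1 := rel 1 one_ne_zero
    simp only [inv_one] at h1
    rw [hh1, mul_one] at h1
    exact h1
  have hninv : a₀ * nG K m = nG K m * a₀⁻¹ := by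
    have h1 := nG_conj m hK ha₀
    rw [mul_inv_eq_iff_eq_mul] at h1
    calc a₀ * nG K m = a₀ * (nG K m * a₀) * a₀⁻¹ := by group
      _ = a₀ * (a₀⁻¹ * nG K m) * a₀⁻¹ := by rw [h1]
      _ = _ := by group
  have r2 : nG K m * wr m 0 l 0 * nG K m = wr m 0 (-1) 0 * (nG K m * a₀) * wr m 0 (-1) 0 := by
    have h1 := congrArg δ r1
    rw [map_mul, map_mul, map_mul, map_mul, ha₀', hpos, hpos] at h1
    rw [← h1, show nG K m * a₀ * wr m 0 1 0 * (nG K m * a₀) =
      nG K m * (a₀ * wr m 0 1 0 * a₀⁻¹) * (a₀ * nG K m) * a₀ by group, hform₀, mul_zero, mul_zero, mul_one,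
      hninv, ← mul_assoc (nG K m * wr m 0 l 0), inv_mul_cancel_right]
  have hl1 : l = 1 := by
    have h1 := (rel l hl0).symm.trans r2
    set H : ↥G¹ := ⟨hG m l⁻¹, hG_mem m (inv_ne_zero hl0)⟩
    set d : ↥G¹ := (wr m 0 (-1) 0)⁻¹ * wr m 0 (-l⁻¹) 0 with hd
    have hH : H ∈ TG K m := (mem_TG m).2 (hG_mem_H1 m hK (inv_ne_zero hl0))
    have e : nG K m * d * nG K m =
        a₀ * wr m 0 (-1) 0 * (wr m 0 (-l⁻¹) 0)⁻¹ * (nG K m * H⁻¹ * (nG K m)⁻¹) := by
      have hn' : (nG K m)⁻¹ = nG K m := inv_eq_of_mul_eq_one_right hn2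
      calc nG K m * d * nG K m = nG K m * (wr m 0 (-1) 0)⁻¹ *
            (wr m 0 (-l⁻¹) 0 * H * nG K m * wr m 0 (-l⁻¹) 0) *
              (wr m 0 (-l⁻¹) 0)⁻¹ * (nG K m)⁻¹ * H⁻¹ * nG K m := by rw [hd]; group
        _ = nG K m * (wr m 0 (-1) 0)⁻¹ * (wr m 0 (-1) 0 * (nG K m * a₀) * wr m 0 (-1) 0) *
              (wr m 0 (-l⁻¹) 0)⁻¹ * (nG K m)⁻¹ * H⁻¹ * nG K m := by rw [h1]
        _ = (nG K m * nG K m) * a₀ * wr m 0 (-1) 0 * (wr m 0 (-l⁻¹) 0)⁻¹ *
              ((nG K m)⁻¹ * H⁻¹ * nG K m) := by group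
        _ = _ := by rw [hn2, one_mul, hn']
    rw [nG_conj m hK (inv_mem hH), inv_inv] at e
    have hB : ∀ x ∈ TG K m, (x : GL chevG2.Idx K) ∈ chevG2.borelSubgroup K := fun x hx =>
      Subgroup.mem_sup_right (Subgroup.mem_inf.1 ((mem_TG m).1 hx)).1
    have hB' : ∀ t : K, (wr m 0 t 0 : GL chevG2.Idx K) ∈ chevG2.borelSubgroup K := fun t =>
      Subgroup.mem_sup_left (W_mem _ _ _ _ _ _)
    have hd1 : (d : GL chevG2.Idx K) = 1 := eq_one_of_conj_borel m hK
      (mul_mem (inv_mem (W_mem _ _ _ _ _ _)) (W_mem _ _ _ _ _ _)) (by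
        rw [nJ_inv m hK, show nJ K * (d : GL chevG2.Idx K) * nJ K =
          ((nG K m * d * nG K m : ↥G¹) : GL chevG2.Idx K) from rfl, e]
        exact mul_mem (mul_mem (mul_mem (hB _ ha₀) (hB' _)) (inv_mem (hB' _))) (hB _ hH))
    have hd2 : wr m 0 (-1 : K) 0 = wr m 0 (-l⁻¹) 0 := by
      have : d = 1 := Subtype.ext hd1
      rwa [hd, inv_mul_eq_one] at this
    exact inv_eq_one.1 (neg_injective (wr_inj m hd2).2.1).symm
  rw [hl1, r1] at r2
  have hn : δ (nG K m) = nG K m := by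
    rw [ha₀', mul_eq_left]
    exact (mul_eq_left.1 (mul_left_cancel (mul_right_cancel r2)).symm)
  -- conclusion
  refine MulEquiv.ext fun x => ?_
  obtain ⟨x, hx⟩ := x
  induction hx using Subgroup.closure_induction with
  | mem g hg =>
    obtain ⟨w, ⟨t, u, v, hw | hw⟩, hgw⟩ := hg
    · have e : g = WR m t u v := Units.ext (by rw [hgw, hw]; exact (coe_WR m t u v).symm)
      subst e
      exact hpos t u v
    · have e : g = nJ K * WR m t u v * (nJ K)⁻¹ := Units.ext (by rw [hgw, hw]; exact (coe_conj_WR m t u v).symm)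
      subst e
      show δ (nG K m * wr m t u v * (nG K m)⁻¹) = nG K m * wr m t u v * (nG K m)⁻¹
      rw [map_mul, map_mul, map_inv, hpos, hn]
  | one => exact map_one δ
  | mul x y hx hy ihx ihy =>
    show δ (⟨x, hx⟩ * ⟨y, hy⟩) = _
    rw [map_mul, ihx, ihy]
    rfl
  | inv x hx ih =>
    show δ (⟨x, hx⟩⁻¹) = _
    rw [map_inv, ih]
    rfl

end CfsgLib.Chev.Ree
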