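import Cfsg.Agent.Chev.Ree.SchurThree
import Cfsg.Agent.Chev.Ree.HallApps
import Cfsg.Agent.Chev.Ree.SylowTwoNormalizer

/-! The Schur multiplier of the small Ree groups is trivial. -/

set_option autoImplicit false
set_option linter.unusedSectionVars false
set_option linter.style.haveILetI false

namespace CfsgLib.Chev.Ree

open Cfsg.Lie CfsgLib.Chev Matrix CfsgLib.Schur
open scoped commutatorElement

universe u w

variable {K : Type u} [Field K] [Finite K] [CharP K 3] (m : ℕ) (hK : Nat.card K = 3 ^ (2 * m + 1))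

local notation "θ" => (3 ^ m : ℕ)
local notation "G¹" => twistedG2 K (3 ^ m)

section cover

variable {Γ : Type w} [Group Γ] {σ : Γ →* ↥(twistedG2 K (3 ^ m))} {e : Γ} {p : ℕ}

/-- Covers of prime degree at least five: the Sylow subgroups are cyclic. -/
theorem comm_of_cyclic (c : PrimeCover σ e p) {Q : Subgroup ↥G¹} [IsCyclic ↥Q] :
    ⁅Q.comap σ, Q.comap σ⁆ = ⊥ := by
  obtain ⟨⟨q, hq⟩, hgen⟩ := IsCyclic.exists_generator (α := ↥Q)
  obtain ⟨x, hx⟩ := c.surj q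
  have hdec : ∀ y ∈ Q.comap σ, ∃ n : ℤ, ∃ z ∈ σ.ker, y = x ^ n * z := fun y hy => by
    obtain ⟨n, hn⟩ := Subgroup.mem_zpowers_iff.1 (hgen ⟨σ y, hy⟩)
    exact ⟨n, c.exists_of_map_eq (by rw [map_zpow, hx]; exact (congrArg Subtype.val hn).symm)⟩
  refine eq_bot_iff.2 (Subgroup.commutator_le.2 fun y hy y' hy' => ?_)
  obtain ⟨n, z, hz, rfl⟩ := hdec y hy
  obtain ⟨n', z', hz', rfl⟩ := hdec y' hy'
  rw [Subgroup.mem_bot, commutatorElement_eq_one_iff_mul_comm]
  have k1 : Commute (x ^ n) (x ^ n') := (Commute.refl x).zpow_zpow n n'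
  have k2 : ∀ w, Commute z w := fun w => (c.comm w hz).symm
  have k3 : ∀ w, Commute w z' := fun w => c.comm w hz'
  exact ((k1.mul_left (k2 _)).mul_right (k3 _)).eq

include hK

/-- **No cover of degree two**: lifts of the elements of a Sylow 2-subgroup commute. -/
theorem comm_two (c : PrimeCover σ e 2) :
    ⁅(S₀ K m hK).comap σ, (S₀ K m hK).comap σ⁆ = ⊥ := by
  classical
  haveI : Fact (Nat.Prime 7) := ⟨by norm_num⟩
  set S := S₀ K m hK
  have hS8 : Nat.card ↥S = 8 := card_S₀ m hK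
  choose L hL using c.surj
  -- an element of order seven permuting the involutions transitively
  obtain ⟨⟨s, hsN⟩, hs7⟩ := exists_prime_orderOf_dvd_card'
    (G := ↥(Subgroup.normalizer ((S : Subgroup ↥G¹) : Set ↥G¹))) 7
    (by rw [card_normalizer_S₀ m hK]; norm_num)
  rw [Subgroup.orderOf_mk] at hs7
  have hpow : ∀ n : ℕ, s ^ n ∈ Subgroup.normalizer ((S : Subgroup ↥G¹) : Set ↥G¹) := fun n => pow_mem hsN n
  have hconj : ∀ n : ℕ, ∀ r ∈ S, s ^ n * r * (s ^ n)⁻¹ ∈ S := fun n r hr =>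
    (Subgroup.mem_normalizer_iff.1 (hpow n) r).1 hr
  obtain ⟨r₀, hr₀S, hr₀⟩ : ∃ r ∈ S, s * r * s⁻¹ ≠ r := by
    by_contra hcon
    push Not at hcon
    have : s ∈ S := by
      rw [show (S : Subgroup ↥G¹) = Subgroup.centralizer ((S : Subgroup ↥G¹) : Set ↥G¹) from (centralizer_S₀ m hK).symm]
      refine Subgroup.mem_centralizer_iff.2 fun r hr => ?_
      rw [← mul_inv_eq_iff_eq_mul.1 (hcon r hr)]
    have h7 : orderOf (⟨s, this⟩ : ↥S) ∣ 8 := hS8 ▸ orderOf_dvd_natCard _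
    rw [Subgroup.orderOf_mk, hs7] at h7
    norm_num at h7
  have hr₀1 : r₀ ≠ 1 := fun h => hr₀ (by rw [h, mul_one, mul_inv_cancel])
  have horb : ∀ i j : ℕ, i < 7 → j < 7 → s ^ i * r₀ * (s ^ i)⁻¹ = s ^ j * r₀ * (s ^ j)⁻¹ → i = j := by
    intro i j hi hj h
    by_contra hne
    obtain ⟨n, hn⟩ : ∃ n : ℤ, (s ^ ((i : ℤ) - j)) ^ n = s := by
      have hu : IsUnit (((i : ℤ) - j : ℤ) : ZMod 7) := by
        rw [isUnit_iff_ne_zero]
        intro h0
        rw [ZMod.intCast_zmod_eq_zero_iff_dvd] at h0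
        omega
      obtain ⟨v, hv⟩ := ZMod.intCast_surjective (((hu.unit⁻¹ : (ZMod 7)ˣ) : ZMod 7))
      refine ⟨v, ?_⟩
      rw [← _root_.zpow_mul, ← zpow_one s, ← _root_.zpow_mul, one_mul, zpow_eq_zpow_iff_modEq, hs7,
        ← ZMod.intCast_eq_intCast_iff]
      have := hu.mul_val_inv
      rw [← hv] at this
      push_cast at this ⊢
      exact this
    refine hr₀ ?_
    have hc : Commute (s ^ ((i : ℤ) - j)) r₀ := by
      show _ = _
      rw [sub_eq_add_neg, add_comm, _root_.zpow_add, _root_.zpow_neg, zpow_natCast, zpow_natCast]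
      calc (s ^ j)⁻¹ * s ^ i * r₀ = (s ^ j)⁻¹ * (s ^ i * r₀ * (s ^ i)⁻¹) * s ^ i := by group
        _ = (s ^ j)⁻¹ * (s ^ j * r₀ * (s ^ j)⁻¹) * s ^ i := by rw [h]
        _ = r₀ * ((s ^ j)⁻¹ * s ^ i) := by group
    have hc' := hc.zpow_left n
    rw [hn] at hc'
    rw [hc'.eq, mul_inv_cancel_right]
  have hcover : ∀ g ∈ S, g ≠ 1 → ∃ i, s ^ i * r₀ * (s ^ i)⁻¹ = g := by
    intro g hg hg1
    let f : Fin 7 → {x : ↥S // x ≠ 1} := fun i =>
      ⟨⟨s ^ (i : ℕ) * r₀ * (s ^ (i : ℕ))⁻¹, hconj i r₀ hr₀S⟩,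
        fun h => hr₀1 (conj_eq_one_iff.1 (congrArg Subtype.val h))⟩
    have hf : Function.Injective f := fun i j h =>
      Fin.ext (horb i j i.2 j.2 (congrArg Subtype.val (congrArg Subtype.val h)))
    haveI := Fintype.ofFinite ↥S
    have hb : Function.Bijective f := by
      rw [Fintype.bijective_iff_injective_and_card]
      refine ⟨hf, ?_⟩
      rw [Fintype.card_fin, Fintype.card_subtype_compl, Fintype.card_subtype_eq, ← Nat.card_eq_fintype_card, hS8]
    obtain ⟨i, hi⟩ := hb.2 ⟨⟨g, hg⟩, fun h => hg1 (congrArg Subtype.val h)⟩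
    exact ⟨i, congrArg Subtype.val (congrArg Subtype.val hi)⟩
  -- a nontrivial element of the radical
  let Co : ↥G¹ → ↥G¹ → Prop := fun g h => L g * L h = L h * L g
  have hwd : ∀ X Y, Co (σ X) (σ Y) → X * Y = Y * X := fun X Y h => by
    rw [← commutatorElement_eq_one_iff_mul_comm, c.comm_eq (hL (σ X)).symm (hL (σ Y)).symm,
      commutatorElement_eq_one_iff_mul_comm]
    exact h
  have hwd' : ∀ g h X Y, σ X = g → σ Y = h → X * Y = Y * X → Co g h := fun g h X Y hX hY hc => by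
    show L g * L h = L h * L g
    rw [← commutatorElement_eq_one_iff_mul_comm, c.comm_eq ((hL g).trans hX.symm) ((hL h).trans hY.symm),
      commutatorElement_eq_one_iff_mul_comm]
    exact hc
  have hone : ∀ g, Co g 1 := fun g => hwd' g 1 (L g) 1 (hL g) (map_one σ) (by rw [mul_one, one_mul])
  have hsymm : ∀ g h, Co g h → Co h g := fun g h hc => hc.symm
  have hCmul : ∀ g h h', Co g h → Co g h' → Co g (h * h') := fun g h h' h1 h2 =>
    hwd' g _ (L g) (L h * L h') (hL g) (by rw [map_mul, hL, hL]) ((Commute.mul_right h1 h2).eq)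
  have hee : e * e = 1 := by have := c.pow_ker c.e_mem; rwa [pow_two] at this
  have hker2 : ∀ z ∈ σ.ker, z = 1 ∨ z = e := fun z hz => by
    rw [c.gen, Subgroup.mem_zpowers_iff] at hz
    obtain ⟨i, rfl⟩ := hz
    rcases Int.even_or_odd' i with ⟨j, rfl | rfl⟩
    · exact Or.inl (by rw [_root_.zpow_mul, zpow_two, hee, _root_.one_zpow])
    · exact Or.inr (by rw [_root_.zpow_add, _root_.zpow_mul, zpow_two, hee, _root_.one_zpow, one_mul, zpow_one])
  have hnot : ∀ g h, g ∈ S → h ∈ S → ¬ Co g h → ⁅L g, L h⁆ = e := fun g h hg hh hn => by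
    refine ((hker2 _ ?_).resolve_left fun h1 => hn (commutatorElement_eq_one_iff_mul_comm.1 h1))
    rw [MonoidHom.mem_ker, map_commutatorElement, hL, hL, commutatorElement_eq_one_iff_mul_comm]
    exact S₀_comm m hK hg hh
  have hnn : ∀ g h h', g ∈ S → h ∈ S → h' ∈ S → ¬ Co g h → ¬ Co g h' → Co g (h * h') := by
    intro g h h' hg hh hh' n1 n2
    refine hwd' g _ (L g) (L h * L h') (hL g) (by rw [map_mul, hL, hL]) ?_
    rw [← commutatorElement_eq_one_iff_mul_comm]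
    calc ⁅L g, L h * L h'⁆ = ⁅L g, L h⁆ * (L h * ⁅L g, L h'⁆ * (L h)⁻¹) := by
          simp only [commutatorElement_def]; group
      _ = e * e := by rw [hnot g h hg hh n1, hnot g h' hg hh' n2, c.conj_ker _ c.e_mem]
      _ = 1 := hee
  let R : Subgroup ↥S :=
    { carrier := {r | ∀ g ∈ S, Co r g}
      one_mem' := fun g _ => hsymm _ _ (hone g)
      mul_mem' := fun {a b} ha hb g hg => hsymm _ _ (hCmul g a b (hsymm _ _ (ha g hg)) (hsymm _ _ (hb g hg)))
      inv_mem' := fun {a} ha g hg => by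
        refine hwd' _ g (L a)⁻¹ (L g) (by rw [map_inv, hL]; rfl) (hL g) ?_
        exact (Commute.inv_left (show Commute (L (a : ↥G¹)) (L g) from ha g hg)).eq }
  obtain ⟨r, hrS, hr1, hr⟩ : ∃ r ∈ S, r ≠ 1 ∧ ∀ g ∈ S, Co r g := by
    by_contra hcon
    push Not at hcon
    obtain ⟨g₃, hg₃, hn⟩ := hcon r₀ hr₀S hr₀1
    -- the centraliser of `r₀` in `S`
    let C : Subgroup ↥S :=
      { carrier := {g | Co r₀ g}
        one_mem' := hone r₀
        mul_mem' := fun {a b} ha hb => hCmul r₀ a b ha hb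
        inv_mem' := fun {a} ha => hwd' r₀ _ (L r₀) (L (a : ↥G¹))⁻¹ (hL _) (by rw [map_inv, hL]; rfl)
          (Commute.inv_right (show Commute (L r₀) (L (a : ↥G¹)) from ha)).eq }
    have hidx : C.index = 2 := by
      rw [Subgroup.index_eq_two_iff]
      refine ⟨⟨g₃, hg₃⟩, fun b => ?_⟩
      by_cases hb : Co r₀ b
      · refine Or.inr ⟨hb, fun h1 => hn ?_⟩
        have h2 := C.mul_mem (C.inv_mem (show b ∈ C from hb)) h1
        rwa [inv_mul_cancel_left] at h2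
      · exact Or.inl ⟨hnn r₀ b g₃ hr₀S b.2 hg₃ hb hn, hb⟩
    have hC4 : Nat.card ↥C = 4 := by
      have := C.index_mul_card
      rw [hidx, hS8] at this
      omega
    have hne : ¬ C ≤ Subgroup.zpowers (⟨r₀, hr₀S⟩ : ↥S) := fun h => by
      have h2 := Nat.le_of_dvd Nat.card_pos (Subgroup.card_dvd_of_le h)
      rw [Nat.card_zpowers, hC4] at h2
      haveI : Fact (Nat.Prime 2) := ⟨Nat.prime_two⟩
      have : orderOf (⟨r₀, hr₀S⟩ : ↥S) ≤ 2 := Nat.le_of_dvd two_pos (orderOf_dvd_of_pow_eq_one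
        (Subtype.ext (by rw [Subgroup.coe_pow, pow_two]; exact sylow_sq m hK (P₀ K m hK) hr₀S)))
      omega
    obtain ⟨g₂, hg₂C, hg₂n⟩ := SetLike.not_le_iff_exists.1 hne
    have hr₀C : (⟨r₀, hr₀S⟩ : ↥S) ∈ C := (rfl : L r₀ * L r₀ = L r₀ * L r₀)
    -- `C` is generated by `r₀` and `g₂`, so both kill `C`
    have hgen : C = Subgroup.zpowers (⟨r₀, hr₀S⟩ : ↥S) ⊔ Subgroup.zpowers g₂ := by
      refine (Subgroup.eq_of_le_of_card_ge (sup_le (Subgroup.zpowers_le.2 hr₀C) (Subgroup.zpowers_le.2 hg₂C)) ?_).symm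
      set X := Subgroup.zpowers (⟨r₀, hr₀S⟩ : ↥S) ⊔ Subgroup.zpowers g₂
      have hd : Nat.card ↥X ∣ 4 := hC4 ▸ Subgroup.card_dvd_of_le
        (sup_le (Subgroup.zpowers_le.2 hr₀C) (Subgroup.zpowers_le.2 hg₂C))
      have hlt : Nat.card ↥(Subgroup.zpowers (⟨r₀, hr₀S⟩ : ↥S)) < Nat.card ↥X := by
        refine lt_of_not_ge fun h => hg₂n ?_
        rw [Subgroup.eq_of_le_of_card_ge (show Subgroup.zpowers (⟨r₀, hr₀S⟩ : ↥S) ≤ X from le_sup_left) h]
        exact Subgroup.mem_sup_right (Subgroup.mem_zpowers g₂)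
      have h2 : 2 ≤ Nat.card ↥(Subgroup.zpowers (⟨r₀, hr₀S⟩ : ↥S)) := by
        rw [Nat.card_zpowers]
        have h0 := orderOf_pos (⟨r₀, hr₀S⟩ : ↥S)
        have h1 : orderOf (⟨r₀, hr₀S⟩ : ↥S) ≠ 1 := fun h1 =>
          hr₀1 (congrArg Subtype.val (orderOf_eq_one_iff.1 h1))
        omega
      have := Nat.le_of_dvd (by norm_num) hd
      interval_cases hX : Nat.card ↥X <;> omega
    have hkill : ∀ x : ↥S, Co x r₀ → Co x g₂ → ∀ g ∈ C, Co x g := by
      intro x h1 h2 g hg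
      let C' : Subgroup ↥S :=
        { carrier := {g | Co x g}
          one_mem' := hone _
          mul_mem' := fun {a b} ha hb => hCmul _ a b ha hb
          inv_mem' := fun {a} ha => hwd' _ _ (L (x : ↥G¹)) (L (a : ↥G¹))⁻¹ (hL _) (by rw [map_inv, hL]; rfl)
            (Commute.inv_right (show Commute (L (x : ↥G¹)) (L (a : ↥G¹)) from ha)).eq }
      rw [hgen] at hg
      exact (sup_le (Subgroup.zpowers_le.2 (show (⟨r₀, hr₀S⟩ : ↥S) ∈ C' from h1))
        (Subgroup.zpowers_le.2 (show g₂ ∈ C' from h2))) hg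
    -- an element killing `C` and `g₃`
    have hfin : ∀ x : ↥S, (∀ g ∈ C, Co x g) → Co x g₃ → ∀ g ∈ S, Co x g := by
      intro x h1 h2 g hg
      by_cases hb : Co r₀ g
      · exact h1 ⟨g, hg⟩ hb
      · have h3 : Co x (g * g₃) := h1 (⟨g, hg⟩ * ⟨g₃, hg₃⟩) (hnn r₀ g g₃ hr₀S hg hg₃ hb hn)
        have h4 := hCmul _ _ _ h3 h2
        rwa [mul_assoc, sylow_sq m hK (P₀ K m hK) hg₃, mul_one] at h4
    have hg₂1 : (g₂ : ↥G¹) ≠ 1 := fun h => hg₂n (by rw [show g₂ = 1 from Subtype.ext h]; exact one_mem _)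
    have hg₂C' : Co g₂ r₀ := hsymm _ _ hg₂C
    by_cases hb : Co g₂ g₃
    · obtain ⟨g, hg, hn'⟩ := hcon g₂ g₂.2 hg₂1
      exact hn' (hfin g₂ (hkill g₂ hg₂C' rfl) hb g hg)
    · have hx : Co (r₀ * g₂) g₃ :=
        hsymm _ _ (hnn g₃ r₀ g₂ hg₃ hr₀S g₂.2 (fun h => hn (hsymm _ _ h)) (fun h => hb (hsymm _ _ h)))
      have hx1 : r₀ * (g₂ : ↥G¹) ≠ 1 := fun h => hg₂n (by
        rw [show g₂ = (⟨r₀, hr₀S⟩ : ↥S)⁻¹ from eq_inv_of_mul_eq_one_right (Subtype.ext h)]
        exact inv_mem (Subgroup.mem_zpowers _))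
      obtain ⟨g, hg, hn'⟩ := hcon _ (mul_mem hr₀S g₂.2) hx1
      refine hn' (hfin (⟨r₀, hr₀S⟩ * g₂) (hkill _ ?_ ?_) hx g hg)
      · exact hsymm _ _ (hCmul r₀ r₀ g₂ rfl hg₂C)
      · exact hsymm _ _ (hCmul g₂ r₀ g₂ hg₂C' rfl)
  have hall : ∀ g ∈ S, ∀ g' ∈ S, Co g g' := by
    intro g hg g' hg'
    by_cases hg1 : g = 1
    · subst hg1; exact hsymm _ _ (hone g')
    obtain ⟨i, rfl⟩ := hcover g hg hg1
    obtain ⟨i₀, hi₀⟩ := hcover r hrS hr1
    -- conjugating the radical element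
    have hy : (s ^ i * (s ^ i₀)⁻¹)⁻¹ * g' * (s ^ i * (s ^ i₀)⁻¹) ∈ S :=
      ((Subgroup.mem_normalizer_iff''.1 (mul_mem (hpow i) (inv_mem (hpow i₀))) g').1 hg')
    set t := s ^ i * (s ^ i₀)⁻¹ with ht
    have hr' : Commute (L r) (L (t⁻¹ * g' * t)) := hr _ hy
    refine hwd' _ g' (L t * L r * (L t)⁻¹) (L t * L (t⁻¹ * g' * t) * (L t)⁻¹) ?_ ?_ (hr'.map (MulAut.conj (L t)).toMonoidHom).eq
    · rw [map_mul, map_mul, map_inv, hL, hL, ← hi₀, ht]; group
    · rw [map_mul, map_mul, map_inv, hL, hL]; group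
  refine eq_bot_iff.2 (Subgroup.commutator_le.2 fun X hX Y hY => ?_)
  rw [Subgroup.mem_bot, commutatorElement_eq_one_iff_mul_comm]
  exact hwd X Y (hall _ hX _ hY)

end cover

include hK in
/-- **The Schur multiplier of `²G₂(q)` is trivial.** -/
theorem multiplier_trivial (hm1 : 1 ≤ m) : Cfsg.HasCyclicSchurMultiplier ↥G¹ 1 := by
  refine hasTrivial_of fun Γ _ _ σ hσ => ker_eq_bot_of_no_cover hσ fun Δ _ _ τ e p hp c he => ?_
  haveI := Fact.mk hp
  have hone : e = 1 → False := fun h => by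
    have := c.order
    rw [h, orderOf_one] at this
    exact hp.ne_one this.symm
  by_cases h2 : p = 2
  · subst h2
    have h := c.mem_commutator he (P₀ K m hK)
    rw [show ((P₀ K m hK : Sylow 2 ↥G¹) : Subgroup ↥G¹) = S₀ K m hK from rfl, comm_two m hK c,
      Subgroup.mem_bot] at h
    exact hone h
  by_cases h3 : p = 3
  · subst h3
    obtain ⟨U, hU⟩ := exists_UG m hK
    exact no_three_cover m hK c hm1 (fun g hg => (hU g).1 hg) (c.mem_commutator he U)
  obtain ⟨Q⟩ := (inferInstance : Nonempty (Sylow p ↥G¹))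
  haveI := isCyclic_sylow m hK hm1 (p := p) (by
    rcases Nat.lt_or_ge 3 p with h | h
    · exact h
    · exfalso; have := hp.two_le; omega) Q
  have h := c.mem_commutator he Q
  rw [comm_of_cyclic m c, Subgroup.mem_bot] at h
  exact hone h

end CfsgLib.Chev.Ree
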