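import Cfsg.Agent.Chev.Ree.Field
import Cfsg.Agent.Chev.Ree.Rigid
import Cfsg.Agent.Chev.Ree.LocalNormalizers
import Cfsg.Agent.Schur.SylowCover

/-! Covers of degree three of the small Ree groups. -/

set_option autoImplicit false
set_option linter.unusedSectionVars false
set_option linter.style.haveILetI false

namespace CfsgLib.Chev.Ree

open Cfsg.Lie CfsgLib.Chev Matrix CfsgLib.Schur
open scoped commutatorElement

universe u w

/-- A biadditive pairing which is invariant under a twisted scaling vanishes, as soon as the twist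
is not additive. -/
theorem pair_zero {K : Type u} [Field K] {A : Type w} [Group A] (B : K → K → A)
    (hl : ∀ x x' y, B (x + x') y = B x y * B x' y) (hr : ∀ x y y', B x (y + y') = B x y * B x y')
    (β : K → K) (hβ : ∀ k, k ≠ 0 → β k ≠ 0) (hinv : ∀ k, k ≠ 0 → ∀ x y, B (k * x) (β k * y) = B x y)
    {k : K} (hk : k ≠ 0) (hk1 : k + 1 ≠ 0) (hδ : (β k)⁻¹ + (β 1)⁻¹ ≠ (β (k + 1))⁻¹) (x y : K) :
    B x y = 1 := by
  have h : ∀ l, l ≠ 0 → ∀ x y, B (l * x) y = B x ((β l)⁻¹ * y) := fun l hl0 x y => by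
    rw [← hinv l hl0 x ((β l)⁻¹ * y), mul_inv_cancel_left₀ (hβ l hl0)]
  set δ := (β k)⁻¹ + (β 1)⁻¹ - (β (k + 1))⁻¹
  have hδ0 : δ ≠ 0 := sub_ne_zero.2 hδ
  have key : ∀ z, B x (δ * z) = 1 := fun z => by
    have h1 : B ((k + 1) * x) z = B (k * x) z * B (1 * x) z := by rw [add_mul, hl]
    rw [h _ hk1, h _ hk, h _ one_ne_zero, ← hr,
      show (β k)⁻¹ * z + (β 1)⁻¹ * z = δ * z + (β (k + 1))⁻¹ * z by simp only [δ]; ring, hr] at h1
    exact right_eq_mul.1 h1
  rw [← mul_inv_cancel_left₀ hδ0 y]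
  exact key _

variable {K : Type u} [Field K] [Finite K] [CharP K 3] (m : ℕ) (hK : Nat.card K = 3 ^ (2 * m + 1))

local notation "θ" => (3 ^ m : ℕ)
local notation "G¹" => twistedG2 K (3 ^ m)
local notation "qq" => (3 ^ (2 * m + 1) : ℕ)

/-- The twisting automorphism of the field. -/
local notation "φ" => (fun x : K => x ^ (3 * θ))

include hK in
theorem phi_phi (x : K) : (x ^ (3 * θ)) ^ (3 * θ) = x ^ 3 := by
  rw [← pow_mul, show 3 * θ * (3 * θ) = qq * 3 by rw [pow_succ, two_mul, pow_add]; ring, pow_mul]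
  congr 1
  rw [← hK]
  haveI := Fintype.ofFinite K
  rw [Nat.card_eq_fintype_card, FiniteField.pow_card]

theorem phi_add (x y : K) : (x + y) ^ (3 * θ) = x ^ (3 * θ) + y ^ (3 * θ) := by
  haveI : Fact (Nat.Prime 3) := ⟨Nat.prime_three⟩
  rw [← pow_succ']
  exact add_pow_char_pow x y 3 (m + 1)

include hK in
/-- The torus element acting with a prescribed scalar on the first layer. -/
theorem torus_k {k : K} (hk : k ≠ 0) : ∃ a ∈ TG K m, ∀ t u v : K, a * wr m t u v * a⁻¹ =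
    wr m (k * t) (k * k ^ (3 * θ) * u) (k ^ 2 * k ^ (3 * θ) * v) := by
  obtain ⟨c, hc⟩ : ∃ c : K, c ^ (3 * θ) = k := by
    refine Finite.injective_iff_surjective.1 (fun x y h => ?_) k
    haveI : Fact (Nat.Prime 3) := ⟨Nat.prime_three⟩
    exact iterateFrobenius_inj K 3 (m + 1) (by simpa [iterateFrobenius_def, pow_succ'] using h)
  have hc0 : c ≠ 0 := fun e => hk (by rw [← hc, e, zero_pow (by positivity)])
  obtain ⟨a, ha, hform⟩ := torus_elt m hK (Units.mk0 c hc0)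
  refine ⟨a, ha, fun t u v => ?_⟩
  have h3 : k ^ (3 * θ) = c ^ 3 := by rw [← hc, phi_phi m hK]
  rw [hform, Units.val_mk0, h3, pow_add c, pow_add c, show 6 * θ = 3 * θ * 2 by ring, pow_mul c (3 * θ) 2, hc]

include hK in
theorem exists_generic (hm1 : 1 ≤ m) : ∃ k : K, k ≠ 0 ∧ k + 1 ≠ 0 ∧ k ≠ 1 := by
  classical
  haveI := Fintype.ofFinite K
  have h : ({0, -1, 1} : Finset K).card < (Finset.univ : Finset K).card := by
    refine lt_of_le_of_lt Finset.card_le_three ?_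
    rw [Finset.card_univ, ← Nat.card_eq_fintype_card, hK]
    calc 3 < 3 ^ 3 := by norm_num
      _ ≤ _ := Nat.pow_le_pow_right (by norm_num) (by omega)
  obtain ⟨k, -, hk⟩ := Finset.exists_mem_notMem_of_card_lt_card h
  simp only [Finset.mem_insert, Finset.mem_singleton, not_or] at hk
  exact ⟨k, hk.1, fun e => hk.2.1 (eq_neg_of_add_eq_zero_left e), hk.2.2⟩

theorem inv_not_additive {k : K} (hk : k ≠ 0) (hk1 : k + 1 ≠ 0) (hk2 : k ≠ 1) :
    k⁻¹ + (1 : K)⁻¹ ≠ (k + 1)⁻¹ := by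
  intro h
  have h3 : (3 : K) = 0 := by exact_mod_cast CharP.cast_eq_zero K 3
  rw [inv_one] at h
  field_simp at h
  have h4 : (k - 1) * (k - 1) = 0 := by linear_combination h - k * h3
  exact hk2 (sub_eq_zero.1 (mul_self_eq_zero.1 h4))

include hK in
theorem weight_not_additive (hm1 : 1 ≤ m) : ∃ k : K, k ≠ 0 ∧ k + 1 ≠ 0 ∧
    (k ^ 2 * k ^ (3 * θ))⁻¹ + ((1 : K) ^ 2 * (1 : K) ^ (3 * θ))⁻¹ ≠
      ((k + 1) ^ 2 * (k + 1) ^ (3 * θ))⁻¹ := by
  classical
  haveI := Fintype.ofFinite K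
  by_contra hcon
  push Not at hcon
  let P : Polynomial K := (Polynomial.X ^ (3 * θ + 2) + 1) * ((Polynomial.X + 1) ^ 2 * (Polynomial.X ^ (3 * θ) + 1)) -
    Polynomial.X ^ (3 * θ + 2)
  have he : 0 < 3 * θ := by positivity
  have hP0 : P ≠ 0 := fun e => by
    have := congrArg (Polynomial.eval 0) e
    simp [P, zero_pow he.ne'] at this
  have hdeg : P.natDegree ≤ 6 * θ + 4 := by
    have h1 : (Polynomial.X ^ (3 * θ + 2) + 1 : Polynomial K).natDegree ≤ 3 * θ + 2 :=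
      (Polynomial.natDegree_add_le _ _).trans (by simp)
    have h2 : (Polynomial.X ^ (3 * θ) + 1 : Polynomial K).natDegree ≤ 3 * θ :=
      (Polynomial.natDegree_add_le _ _).trans (by simp)
    have h3 : ((Polynomial.X + 1) ^ 2 : Polynomial K).natDegree ≤ 2 :=
      Polynomial.natDegree_pow_le.trans (by
        have : (Polynomial.X + 1 : Polynomial K).natDegree ≤ 1 :=
          (Polynomial.natDegree_add_le _ _).trans (by simp)
        omega)
    have h4 := (Polynomial.natDegree_mul_le).trans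
      (Nat.add_le_add h1 ((Polynomial.natDegree_mul_le).trans (Nat.add_le_add h3 h2)))
    refine (Polynomial.natDegree_sub_le _ _).trans (max_le (h4.trans (by omega)) ?_)
    rw [Polynomial.natDegree_X_pow]; omega
  have hsub : ((Finset.univ.erase (0 : K)).erase (-1)) ⊆ P.roots.toFinset := by
    intro k hk
    have hk1 : k + 1 ≠ 0 := fun e => Finset.ne_of_mem_erase hk (eq_neg_of_add_eq_zero_left e)
    have hk0 := Finset.ne_of_mem_erase (Finset.mem_of_mem_erase hk)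
    rw [Multiset.mem_toFinset, Polynomial.mem_roots hP0, Polynomial.IsRoot.def]
    have h := hcon k hk0 hk1
    rw [one_pow, one_pow, one_mul, inv_one] at h
    have d1 : k ^ 2 * k ^ (3 * θ) ≠ 0 := mul_ne_zero (pow_ne_zero _ hk0) (pow_ne_zero _ hk0)
    have d2 : (k + 1) ^ 2 * (k + 1) ^ (3 * θ) ≠ 0 :=
      mul_ne_zero (pow_ne_zero _ hk1) (pow_ne_zero _ hk1)
    field_simp at h
    simp only [P, Polynomial.eval_sub, Polynomial.eval_mul, Polynomial.eval_add, Polynomial.eval_pow,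
      Polynomial.eval_X, Polynomial.eval_one]
    rw [pow_add k (3 * θ) 2]
    rw [phi_add (K := K) m k 1, one_pow] at h
    linear_combination h
  have h1 := (Finset.card_le_card hsub).trans ((Multiset.toFinset_card_le _).trans (Polynomial.card_roots' P))
  rw [Finset.card_erase_of_mem (by simp), Finset.card_erase_of_mem (Finset.mem_univ _), Finset.card_univ,
    ← Nat.card_eq_fintype_card, hK] at h1
  have h3 : 3 ≤ θ := Nat.le_self_pow (by omega) 3
  have h5 : qq = 3 * θ * θ := by rw [pow_succ, two_mul, pow_add]; ring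
  have h6 : 3 * θ * 3 ≤ 3 * θ * θ := Nat.mul_le_mul_left _ h3
  omega

section cover

variable {Γ : Type w} [Group Γ] {σ : Γ →* ↥(twistedG2 K (3 ^ m))} {e : Γ} (c : PrimeCover σ e 3)
include c

/-- Lifts of two commuting one-parameter families define a biadditive pairing. -/
theorem exists_pairing (f g : K → ↥G¹) (hf : ∀ x x', f (x + x') = f x * f x')
    (hg : ∀ x x', g (x + x') = g x * g x') (hc : ∀ x y, f x * g y = g y * f x) :
    ∃ B : K → K → Γ, (∀ x x' y, B (x + x') y = B x y * B x' y) ∧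
      (∀ x y y', B x (y + y') = B x y * B x y') ∧ (∀ x y, B x y ^ 3 = 1) ∧
      (∀ X Y x y, σ X = f x → σ Y = g y → ⁅X, Y⁆ = B x y) ∧
      (∀ (a : ↥G¹) x y x' y', a * f x * a⁻¹ = f x' → a * g y * a⁻¹ = g y' → B x' y' = B x y) := by
  choose L hL using c.surj
  set B : K → K → Γ := fun x y => ⁅L (f x), L (g y)⁆ with hB
  have hker : ∀ x y, B x y ∈ σ.ker := fun x y => by
    rw [MonoidHom.mem_ker, hB, map_commutatorElement, hL, hL, commutatorElement_eq_one_iff_mul_comm, hc]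
  have hwd : ∀ X Y x y, σ X = f x → σ Y = g y → ⁅X, Y⁆ = B x y := fun X Y x y hX hY =>
    c.comm_eq (hX.trans (hL _).symm) (hY.trans (hL _).symm)
  refine ⟨B, fun x x' y => ?_, fun x y y' => ?_, fun x y => c.pow_ker (hker x y), hwd,
    fun a x y x' y' h1 h2 => ?_⟩
  · rw [← hwd (L (f x) * L (f x')) (L (g y)) (x + x') y (by rw [map_mul, hL, hL, hf]) (hL _),
      show ⁅L (f x) * L (f x'), L (g y)⁆ = L (f x) * ⁅L (f x'), L (g y)⁆ * (L (f x))⁻¹ * ⁅L (f x), L (g y)⁆ by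
        simp only [commutatorElement_def]; group]
    show L (f x) * B x' y * (L (f x))⁻¹ * B x y = _
    rw [c.conj_ker _ (hker x' y), c.comm _ (hker x y)]
  · rw [← hwd (L (f x)) (L (g y) * L (g y')) x (y + y') (hL _) (by rw [map_mul, hL, hL, hg]),
      show ⁅L (f x), L (g y) * L (g y')⁆ = ⁅L (f x), L (g y)⁆ * (L (g y) * ⁅L (f x), L (g y')⁆ * (L (g y))⁻¹) by
        simp only [commutatorElement_def]; group]
    show B x y * (L (g y) * B x y' * (L (g y))⁻¹) = _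
    rw [c.conj_ker _ (hker x y')]
  · rw [← hwd (L a * L (f x) * (L a)⁻¹) (L a * L (g y) * (L a)⁻¹) x' y'
        (by rw [map_mul, map_mul, map_inv, hL, hL, h1]) (by rw [map_mul, map_mul, map_inv, hL, hL, h2]),
      show ⁅L a * L (f x) * (L a)⁻¹, L a * L (g y) * (L a)⁻¹⁆ = L a * ⁅L (f x), L (g y)⁆ * (L a)⁻¹ by
        simp only [commutatorElement_def]; group]
    exact c.conj_ker _ (hker x y)

include hK

omit c in
theorem wr_low (u v u' v' : K) :
    wr m 0 u v * wr m 0 u' v' = wr m 0 (u + u') (v + v') := wr_mul_low m hK 0 u v u' v'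

omit c in
theorem wr_low_inv (u v : K) : (wr m 0 u v)⁻¹ = wr m 0 (-u) (-v) :=
  inv_eq_of_mul_eq_one_right (by rw [wr_low m hK, add_neg_cancel, add_neg_cancel, wr_zero])

omit c in
theorem low_mul_wr (u v t u' v' : K) :
    wr m 0 u v * wr m t u' v' = wr m t (u + u') (v + v' - u * t) := by
  rw [wr_mul m hK, zero_add]
  congr 1 <;> ring

omit c in
theorem center_comm (v t u' v' : K) : wr m 0 0 v * wr m t u' v' = wr m t u' v' * wr m 0 0 v := by
  rw [low_mul_wr m hK, wr_mul_low m hK]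
  congr 1 <;> ring

/-- The inverse image of the second term of the series is abelian. -/
theorem low_comm (hm1 : 1 ≤ m) {X Y : Γ} {u v u' v' : K} (hX : σ X = wr m 0 u v)
    (hY : σ Y = wr m 0 u' v') : X * Y = Y * X := by
  set f : K → ↥G¹ := fun x => wr m 0 x 0
  set g : K → ↥G¹ := fun x => wr m 0 0 x
  have hf : ∀ x x', f (x + x') = f x * f x' := fun x x' => by simp [f, wr_low m hK]
  have hg : ∀ x x', g (x + x') = g x * g x' := fun x x' => by simp [g, wr_low m hK]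
  obtain ⟨k, hk, hk1, hk2⟩ := exists_generic m hK hm1
  have hδ := inv_not_additive (K := K) hk hk1 hk2
  have hff : ∀ X Y x y, σ X = f x → σ Y = f y → ⁅X, Y⁆ = 1 := by
    obtain ⟨B, bl, br, -, bwd, binv⟩ := exists_pairing m c f f hf hf fun x y => by simp [f, wr_low m hK, add_comm]
    intro X Y x y hX hY
    rw [bwd X Y x y hX hY]
    have hneg : ∀ x y, B (-x) (-y) = B x y := fun x y => by
      have h0 : ∀ z, B z 0 = 1 := fun z => (left_eq_mul (a := B z 0)).1 (by rw [← br, add_zero])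
      have h0' : ∀ z, B 0 z = 1 := fun z => (left_eq_mul (a := B 0 z)).1 (by rw [← bl, add_zero])
      have h1 : B (-x) (-y) = (B (-x) y)⁻¹ := eq_inv_of_mul_eq_one_left (by rw [← br, neg_add_cancel, h0])
      have h2 : B (-x) y = (B x y)⁻¹ := eq_inv_of_mul_eq_one_left (by rw [← bl, neg_add_cancel, h0'])
      rw [h1, h2, inv_inv]
    refine pair_zero B bl br id (fun _ h => h) (fun a ha x y => ?_) hk hk1 hδ x y
    obtain ⟨b, hb⟩ : ∃ b : K, b ^ 2 = a ∨ b ^ 2 = -a := by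
      classical
      by_cases hsq : IsSquare a
      · obtain ⟨b, rfl⟩ := hsq; exact ⟨b, Or.inl (pow_two b)⟩
      · haveI := Fintype.ofFinite K
        have hm4 : IsSquare (-a) := by
          have h4 : Fintype.card K % 4 = 3 := by
            rw [← Nat.card_eq_fintype_card, hK, Nat.pow_mod, show (3 : ℕ) % 4 = 3 from rfl, pow_succ, pow_mul]
            simp [Nat.mul_mod, Nat.pow_mod]
          have hn : ¬ IsSquare (-1 : K) := fun hh => (FiniteField.isSquare_neg_one_iff.1 hh) h4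
          have hr : ringChar K ≠ 2 := by rw [ringChar.eq K 3]; decide
          by_contra hna
          have e1 := (quadraticChar_neg_one_iff_not_isSquare (F := K)).2 hn
          have e2 := (quadraticChar_neg_one_iff_not_isSquare (F := K)).2 hsq
          have e3 := (quadraticChar_neg_one_iff_not_isSquare (F := K)).2 hna
          rw [neg_eq_neg_one_mul, map_mul, e1, e2] at e3
          norm_num at e3
        obtain ⟨b, hb⟩ := hm4
        exact ⟨b, Or.inr (by rw [hb, pow_two])⟩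
    have hb0 : b ≠ 0 := fun h0 => by
      rcases hb with hb | hb <;> simp [h0] at hb <;> exact ha (by simp [hb])
    obtain ⟨s, -, hs⟩ := torus_k m hK (k := b ^ (3 * θ) / b) (div_ne_zero (pow_ne_zero _ hb0) hb0)
    have hw : b ^ (3 * θ) / b * (b ^ (3 * θ) / b) ^ (3 * θ) = b ^ 2 := by
      rw [div_pow, phi_phi m hK]; field_simp
    have hsf : ∀ z, s * f z * s⁻¹ = f (b ^ 2 * z) := fun z => by simp only [f]; rw [hs, hw, mul_zero, mul_zero]
    have := binv s x y _ _ (hsf x) (hsf y)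
    rcases hb with hb | hb
    · rw [hb] at this; exact this
    · rw [hb, neg_mul, neg_mul, hneg] at this; exact this
  have hgg : ∀ X Y x y, σ X = g x → σ Y = g y → ⁅X, Y⁆ = 1 := by
    obtain ⟨B, bl, br, -, bwd, binv⟩ := exists_pairing m c g g hg hg fun x y => by simp [g, wr_low m hK, add_comm]
    intro X Y x y hX hY
    rw [bwd X Y x y hX hY]
    refine pair_zero B bl br id (fun _ h => h) (fun a ha x y => ?_) hk hk1 hδ x y
    obtain ⟨s, -, hs⟩ := torus_k m hK (k := a ^ 2 / a ^ (3 * θ)) (div_ne_zero (pow_ne_zero _ ha) (pow_ne_zero _ ha))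
    have hw : (a ^ 2 / a ^ (3 * θ)) ^ 2 * (a ^ 2 / a ^ (3 * θ)) ^ (3 * θ) = a := by
      rw [div_pow, div_pow, phi_phi m hK, ← pow_mul a 2 (3 * θ), Nat.mul_comm 2 (3 * θ), pow_mul a (3 * θ) 2]
      field_simp
    have hsf : ∀ z, s * g z * s⁻¹ = g (a * z) := fun z => by simp only [g]; rw [hs, hw, mul_zero, mul_zero]
    exact binv s x y _ _ (hsf x) (hsf y)
  have hfg : ∀ X Y x y, σ X = f x → σ Y = g y → ⁅X, Y⁆ = 1 := by
    obtain ⟨B, bl, br, b3, bwd, binv⟩ := exists_pairing m c f g hf hg fun x y => by simp [f, g, wr_low m hK]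
    intro X Y x y hX hY
    rw [bwd X Y x y hX hY]
    obtain ⟨j, -, hj⟩ := torus_k m hK (k := (-1 : K)) (neg_ne_zero.2 one_ne_zero)
    have hodd : (-1 : K) ^ (3 * θ) = -1 := (Nat.Prime.odd_of_ne_two Nat.prime_three (by decide) |>.mul
      ((Nat.Prime.odd_of_ne_two Nat.prime_three (by decide)).pow)).neg_one_pow
    have h1 : B x (-y) = B x y := binv j x y x (-y) (by simp only [f]; rw [hj, hodd]; congr 1 <;> ring)
      (by simp only [g]; rw [hj, hodd]; congr 1 <;> ring)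
    have h2 : B x y * B x y = 1 := by
      nth_rw 2 [← h1]
      rw [← br, add_neg_cancel]
      exact (left_eq_mul (a := B x 0)).1 (by rw [← br, add_zero])
    have h3 := b3 x y
    rwa [show B x y ^ 3 = B x y * B x y * B x y from pow_three' _, h2, one_mul] at h3
  choose L hL using c.surj
  obtain ⟨z, hz, rfl⟩ := c.exists_of_map_eq (x := X) (y := L (f u) * L (g v))
    (by rw [map_mul, hL, hL, hX]; simp [f, g, wr_low m hK])
  obtain ⟨z', hz', rfl⟩ := c.exists_of_map_eq (x := Y) (y := L (f u') * L (g v'))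
    (by rw [map_mul, hL, hL, hY]; simp [f, g, wr_low m hK])
  have k1 : Commute (L (f u)) (L (f u')) := commutatorElement_eq_one_iff_mul_comm.1 (hff _ _ _ _ (hL _) (hL _))
  have k2 : Commute (L (f u)) (L (g v')) := commutatorElement_eq_one_iff_mul_comm.1 (hfg _ _ _ _ (hL _) (hL _))
  have k3 : Commute (L (f u')) (L (g v)) := commutatorElement_eq_one_iff_mul_comm.1 (hfg _ _ _ _ (hL _) (hL _))
  have k4 : Commute (L (g v)) (L (g v')) := commutatorElement_eq_one_iff_mul_comm.1 (hgg _ _ _ _ (hL _) (hL _))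
  have cz : ∀ w, Commute z w := fun w => (c.comm w hz).symm
  have cz' : ∀ w, Commute w z' := fun w => c.comm w hz'
  exact (((((k1.mul_right k2).mul_left (k3.symm.mul_right k4)).mul_left
    (cz _))).mul_right (cz' _)).eq

/-- The centre of the Sylow subgroup lifts to a central subgroup of its inverse image. -/
theorem center_lift_comm (hm1 : 1 ≤ m) {X Y : Γ} {t u v v' : K} (hX : σ X = wr m t u v)
    (hY : σ Y = wr m 0 0 v') : X * Y = Y * X := by
  set f : K → ↥G¹ := fun x => wr m x 0 0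
  set g : K → ↥G¹ := fun x => wr m 0 0 x
  choose L hL using c.surj
  have hTZ : Commute (L (f t)) (L (g v')) := by
    refine commutatorElement_eq_one_iff_mul_comm.1 ?_
    -- additive only modulo the second layer: use lifts of all elements over a given `x`
    have hwd : ∀ (X Y : Γ) (a b d y : K), σ X = wr m a b d → σ Y = g y → ⁅X, Y⁆ = ⁅L (f a), L (g y)⁆ := by
      intro X Y a b d y hX hY
      obtain ⟨z, hz, rfl⟩ := c.exists_of_map_eq (x := X) (y := L (f a) * L (wr m 0 b d))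
        (by rw [map_mul, hL, hL, hX, wr_mul_low m hK, zero_add, zero_add])
      rw [c.comm_eq (x' := L (f a) * L (wr m 0 b d)) (y' := L (g y))
        (by rw [map_mul, MonoidHom.mem_ker.1 hz, mul_one]) (hY.trans (hL _).symm)]
      have hcm := low_comm m hK c hm1 (X := L (wr m 0 b d)) (Y := L (g y)) (hL _) (hL _)
      calc ⁅L (f a) * L (wr m 0 b d), L (g y)⁆
          = L (f a) * (L (wr m 0 b d) * L (g y)) * (L (wr m 0 b d))⁻¹ * (L (f a))⁻¹ * (L (g y))⁻¹ := by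
            simp only [commutatorElement_def]; group
        _ = L (f a) * (L (g y) * L (wr m 0 b d)) * (L (wr m 0 b d))⁻¹ * (L (f a))⁻¹ * (L (g y))⁻¹ := by
            rw [hcm]
        _ = _ := by simp only [commutatorElement_def]; group
    have hker : ∀ x y, ⁅L (f x), L (g y)⁆ ∈ σ.ker := fun x y => by
      rw [MonoidHom.mem_ker, map_commutatorElement, hL, hL, commutatorElement_eq_one_iff_mul_comm]
      exact (center_comm m hK y x 0 0).symm
    refine pair_zero (fun x y => ⁅L (f x), L (g y)⁆) (fun x x' y => ?_) (fun x y y' => ?_)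
      (fun k => k ^ 2 * k ^ (3 * θ)) (fun k hk => mul_ne_zero (pow_ne_zero _ hk) (pow_ne_zero _ hk))
      (fun k hk x y => ?_) (weight_not_additive m hK hm1).choose_spec.1
      (weight_not_additive m hK hm1).choose_spec.2.1 (weight_not_additive m hK hm1).choose_spec.2.2 t v'
    · rw [← hwd (L (f x) * L (f x')) (L (g y)) (x + x') _ _ y (by rw [map_mul, hL, hL, wr_mul m hK]) (hL _),
        show ⁅L (f x) * L (f x'), L (g y)⁆ = L (f x) * ⁅L (f x'), L (g y)⁆ * (L (f x))⁻¹ * ⁅L (f x), L (g y)⁆ by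
          simp only [commutatorElement_def]; group, c.conj_ker _ (hker x' y), c.comm _ (hker x y)]
    · rw [← hwd (L (f x)) (L (g y) * L (g y')) x 0 0 (y + y') (hL _)
        (by rw [map_mul, hL, hL]; simp [g, wr_low m hK]),
        show ⁅L (f x), L (g y) * L (g y')⁆ = ⁅L (f x), L (g y)⁆ * (L (g y) * ⁅L (f x), L (g y')⁆ * (L (g y))⁻¹) by
          simp only [commutatorElement_def]; group, c.conj_ker _ (hker x y')]
    · obtain ⟨s, -, hs⟩ := torus_k m hK hk
      rw [← hwd (L s * L (f x) * (L s)⁻¹) (L s * L (g y) * (L s)⁻¹) (k * x) _ _ (k ^ 2 * k ^ (3 * θ) * y)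
          (by rw [map_mul, map_mul, map_inv, hL, hL, hs]) (by rw [map_mul, map_mul, map_inv, hL, hL, hs]; simp [g]),
        show ⁅L s * L (f x) * (L s)⁻¹, L s * L (g y) * (L s)⁻¹⁆ = L s * ⁅L (f x), L (g y)⁆ * (L s)⁻¹ by
          simp only [commutatorElement_def]; group]
      exact c.conj_ker _ (hker x y)
  obtain ⟨z, hz, rfl⟩ := c.exists_of_map_eq (x := X) (y := L (f t) * L (wr m 0 u v))
    (by rw [map_mul, hL, hL, hX, wr_mul_low m hK, zero_add, zero_add])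
  obtain ⟨z', hz', rfl⟩ := c.exists_of_map_eq (x := Y) (y := L (g v')) (by rw [hL, hY])
  have k2 : Commute (L (wr m 0 u v)) (L (g v')) := low_comm m hK c hm1 (hL _) (hL _)
  exact (((hTZ.mul_left k2).mul_left (show Commute z _ from (c.comm _ hz).symm)).mul_right
    (show Commute _ z' from c.comm _ hz')).eq

/-- **No cover of degree three** with kernel in the commutator subgroup of the inverse image of a
Sylow subgroup. -/
theorem no_three_cover (hm1 : 1 ≤ m) {U : Subgroup ↥G¹} (hU : ∀ g, g ∈ U → g ∈ posSet K m) :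
    e ∉ ⁅U.comap σ, U.comap σ⁆ := by
  intro heU
  choose L hL using c.surj
  obtain ⟨k, hk, hk1, hk2⟩ := exists_generic m hK hm1
  have hl2 : k * k ^ (3 * θ) ≠ 1 := by
    intro h
    have h1 : k ^ (3 * θ) * k ^ 3 = 1 := by rw [← phi_phi m hK k, ← mul_pow, h, one_pow]
    have h2 : k ^ 2 = 1 := by linear_combination h1 - k ^ 2 * h
    rcases sq_eq_one_iff.1 h2 with rfl | rfl
    · exact hk2 rfl
    · exact hk1 (neg_add_cancel 1)
  have hl3 : k ^ 2 * k ^ (3 * θ) ≠ 1 := by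
    intro h
    have h1 : (k ^ (3 * θ)) ^ 2 * k ^ 3 = 1 := by
      rw [← phi_phi m hK k, ← pow_mul, Nat.mul_comm (3 * θ) 2, pow_mul, ← mul_pow, h, one_pow]
    exact hk2 (by linear_combination (k ^ 2 * k ^ (3 * θ) + 1) * h - k * h1)
  obtain ⟨a, haT, ha⟩ := torus_k m hK hk
  obtain ⟨j, hjT, hj⟩ := torus_k m hK (k := (-1 : K)) (neg_ne_zero.2 one_ne_zero)
  have hodd : (-1 : K) ^ (3 * θ) = -1 := (Nat.Prime.odd_of_ne_two Nat.prime_three (by decide) |>.mul
    ((Nat.Prime.odd_of_ne_two Nat.prime_three (by decide)).pow)).neg_one_pow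
  have hjlow : ∀ u v, j * wr m 0 u v * j⁻¹ = wr m 0 u (-v) := fun u v => by
    rw [hj, hodd]; congr 1 <;> ring
  have hTcomm : ∀ s ∈ TG K m, ∀ s' ∈ TG K m, s * s' = s' * s := by
    haveI := isCyclic_TG (K := K) m hK
    intro s hs s' hs'
    letI := IsCyclic.commGroup (α := ↥(TG K m))
    exact congrArg Subtype.val (mul_comm (⟨s, hs⟩ : ↥(TG K m)) ⟨s', hs'⟩)
  let D : Γ → Γ := fun w => L a * w * (L a)⁻¹ * w⁻¹
  let Low : Γ → Prop := fun x => ∃ u v, σ x = wr m 0 u v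
  have hconjLow : ∀ s ∈ TG K m, ∀ x, Low x → Low (L s * x * (L s)⁻¹) := by
    rintro s hs x ⟨u, v, hx⟩
    obtain ⟨d, -, hd⟩ := torus_form m hK hs
    exact ⟨_, _, by rw [map_mul, map_mul, map_inv, hL, hx, hd, mul_zero]⟩
  have hLowMul : ∀ x y, Low x → Low y → Low (x * y) := by
    rintro x y ⟨u, v, hx⟩ ⟨u', v', hy⟩
    exact ⟨_, _, by rw [map_mul, hx, hy, wr_low m hK]⟩
  have hLowInv : ∀ x, Low x → Low x⁻¹ := by
    rintro x ⟨u, v, hx⟩
    exact ⟨_, _, by rw [map_inv, hx, wr_low_inv m hK]⟩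
  have hLowD : ∀ x, Low x → Low (D x) := fun x hx => hLowMul _ _ (hconjLow a haT x hx) (hLowInv _ hx)
  have hLC : ∀ x y, Low x → Low y → x * y = y * x := fun x y ⟨u, v, hx⟩ ⟨u', v', hy⟩ =>
    low_comm m hK c hm1 hx hy
  have hD : ∀ x y, Low x → Low y → D (x * y) = D x * D y := by
    intro x y hx hy
    calc D (x * y) = L a * x * (L a)⁻¹ * (D y * x⁻¹) := by simp only [D]; group
      _ = L a * x * (L a)⁻¹ * (x⁻¹ * D y) := by rw [hLC _ _ (hLowD y hy) (hLowInv x hx)]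
      _ = D x * D y := by simp only [D]; group
  have hDker : ∀ z ∈ σ.ker, D z = 1 := fun z hz => by
    show L a * z * (L a)⁻¹ * z⁻¹ = 1
    rw [c.conj_ker _ hz, mul_inv_cancel]
  have hone : Low 1 := ⟨0, 0, by rw [map_one, wr_zero]⟩
  let N : Subgroup Γ :=
    { carrier := {z | ∃ w, Low w ∧ z = D w}
      one_mem' := ⟨1, hone, (hDker 1 (one_mem _)).symm⟩
      mul_mem' := by
        rintro x y ⟨w, hw, rfl⟩ ⟨w', hw', rfl⟩
        exact ⟨w * w', hLowMul _ _ hw hw', (hD w w' hw hw').symm⟩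
      inv_mem' := by
        rintro x ⟨w, hw, rfl⟩
        refine ⟨w⁻¹, hLowInv _ hw, inv_eq_of_mul_eq_one_right ?_⟩
        rw [← hD w w⁻¹ hw (hLowInv _ hw), mul_inv_cancel]
        exact hDker 1 (one_mem _) }
  have hσD : ∀ w u v, σ w = wr m 0 u v →
      σ (D w) = wr m 0 ((k * k ^ (3 * θ) - 1) * u) ((k ^ 2 * k ^ (3 * θ) - 1) * v) := fun w u v hw => by
    simp only [D, map_mul, map_inv, hL, hw]
    rw [ha, wr_low_inv m hK, mul_zero, wr_low m hK]
    congr 1 <;> ring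
  have hNker : ∀ z ∈ N, z ∈ σ.ker → z = 1 := by
    rintro z ⟨w, ⟨u, v, hw⟩, rfl⟩ hz
    rw [MonoidHom.mem_ker, hσD w u v hw, ← wr_zero (K := K) m] at hz
    obtain ⟨-, h2, h3⟩ := wr_inj m hz
    refine hDker w ?_
    rw [MonoidHom.mem_ker, hw, (mul_eq_zero.1 h2).resolve_left (sub_ne_zero.2 hl2),
      (mul_eq_zero.1 h3).resolve_left (sub_ne_zero.2 hl3), wr_zero]
  have hdec : ∀ z, Low z → ∃ i ∈ σ.ker, ∃ w, Low w ∧ z = D w * i := by
    rintro z ⟨u, v, hz⟩
    set w := L (wr m 0 (u / (k * k ^ (3 * θ) - 1)) (v / (k ^ 2 * k ^ (3 * θ) - 1)))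
    obtain ⟨i, hi, e'⟩ := c.exists_of_map_eq (x := z) (y := D w) (by
      rw [hσD _ _ _ (hL _), hz, mul_div_cancel₀ _ (sub_ne_zero.2 hl2), mul_div_cancel₀ _ (sub_ne_zero.2 hl3)])
    exact ⟨i, hi, w, ⟨_, _, hL _⟩, e'⟩
  -- an inverted element over the centre lies in `N`
  have hinvN : ∀ z v, σ z = wr m 0 0 v → L j * z * (L j)⁻¹ = z⁻¹ → z ∈ N := by
    intro z v hz hzj
    set v' := v / (k ^ 2 * k ^ (3 * θ) - 1)
    set w := L (wr m 0 0 v')
    obtain ⟨i, hi, e'⟩ := c.exists_of_map_eq (x := z) (y := D w) (by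
      rw [hσD _ _ _ (hL _), hz, mul_zero, mul_div_cancel₀ _ (sub_ne_zero.2 hl3)])
    have hwL : Low w := ⟨_, _, hL _⟩
    have haj : ∀ y, L j * (L a * y * (L a)⁻¹) * (L j)⁻¹ = L a * (L j * y * (L j)⁻¹) * (L a)⁻¹ := fun y => by
      calc L j * (L a * y * (L a)⁻¹) * (L j)⁻¹ = (L j * L a) * y * (L j * L a)⁻¹ := by group
        _ = (L a * L j) * y * (L a * L j)⁻¹ :=
          c.conj_eq (by rw [map_mul, map_mul, hL, hL, hTcomm j hjT a haT]) y
        _ = _ := by group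
    obtain ⟨i', hi', e''⟩ := c.exists_of_map_eq (x := L j * w * (L j)⁻¹) (y := w⁻¹) (by
      rw [map_mul, map_mul, map_inv, hL, map_inv, hL, hjlow, wr_low_inv m hK, neg_zero])
    have hDw : L j * D w * (L j)⁻¹ = (D w)⁻¹ := by
      calc L j * D w * (L j)⁻¹ = L j * (L a * w * (L a)⁻¹) * (L j)⁻¹ * (L j * w * (L j)⁻¹)⁻¹ := by
            simp only [D]; group
        _ = D (L j * w * (L j)⁻¹) := by rw [haj]
        _ = D w⁻¹ * D i' := by rw [e'', hD _ _ (hLowInv _ hwL) ⟨0, 0, by rw [MonoidHom.mem_ker.1 hi', wr_zero]⟩]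
        _ = (D w)⁻¹ := by
            rw [hDker i' hi', mul_one]
            refine eq_inv_of_mul_eq_one_left ?_
            rw [← hD _ _ (hLowInv _ hwL) hwL, inv_mul_cancel]
            exact hDker 1 (one_mem _)
    have h2 : i * i = 1 := by
      have hA : L j * z * (L j)⁻¹ = (D w)⁻¹ * i := by
        rw [e', show L j * (D w * i) * (L j)⁻¹ = L j * D w * (L j)⁻¹ * (L j * i * (L j)⁻¹) by group, hDw,
          c.conj_ker _ hi]
      have hB : z⁻¹ = i⁻¹ * (D w)⁻¹ := by rw [e']; exact _root_.mul_inv_rev _ _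
      have hC := hA.symm.trans (hzj.trans hB)
      rw [← c.comm ((D w)⁻¹) (inv_mem hi)] at hC
      exact mul_eq_one_iff_eq_inv.2 (mul_left_cancel hC)
    have h3 := c.pow_ker hi
    rw [show i ^ 3 = i * i * i from pow_three' _, h2, one_mul] at h3
    rw [e', h3, mul_one]
    exact ⟨w, hwL, rfl⟩
  -- commutators with the second layer
  have hPN : ∀ X Y, (∃ t u v, σ X = wr m t u v) → Low Y → ⁅X, Y⁆ ∈ N := by
    rintro X Y ⟨t, u, v, hX⟩ ⟨u', v', hY⟩
    have hz : σ ⁅X, Y⁆ = wr m 0 0 (u' * t) := by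
      rw [commutatorElement_def, map_mul, map_mul, map_mul, map_inv, map_inv, hX, hY]
      rw [show wr m t u v * wr m 0 u' v' * (wr m t u v)⁻¹ * (wr m 0 u' v')⁻¹ =
        (wr m t u v * wr m 0 u' v') * (wr m 0 u' v' * wr m t u v)⁻¹ by group, mul_inv_eq_iff_eq_mul,
        wr_mul_low m hK, low_mul_wr m hK, low_mul_wr m hK]
      congr 1 <;> ring
    refine hinvN _ _ hz ?_
    set X' := L j * X * (L j)⁻¹ with hX'
    set Y' := L j * Y * (L j)⁻¹ with hY'
    have hz' : L j * ⁅X, Y⁆ * (L j)⁻¹ = ⁅X', Y'⁆ := by simp only [hX', hY', commutatorElement_def]; group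
    have hσX' : σ X' = wr m (-t) u (-v) := by
      rw [hX', map_mul, map_mul, map_inv, hL, hX, hj, hodd]; congr 1 <;> ring
    obtain ⟨d, hd, hXd⟩ : ∃ d, Low d ∧ X' = X⁻¹ * d := by
      refine ⟨X * X', ⟨u + u - (-t) ^ (3 * θ) * t, v + -v - (-t) ^ (3 * θ) * t ^ 2 - (u - (-t) ^ (3 * θ) * t) * -t, ?_⟩, (inv_mul_cancel_left X X').symm⟩
      rw [map_mul, hX, hσX', wr_mul m hK, add_neg_cancel]
    obtain ⟨d', hd', hYd⟩ : ∃ d', (∃ v, σ d' = wr m 0 0 v) ∧ Y' = Y * d' := by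
      refine ⟨Y⁻¹ * Y', ⟨-v' + -v', ?_⟩, (mul_inv_cancel_left Y Y').symm⟩
      rw [hY', map_mul, map_inv, map_mul, map_mul, map_inv, hL, hY, hjlow, wr_low_inv m hK, wr_low m hK,
        neg_add_cancel]
    obtain ⟨v0, hd'⟩ := hd'
    have hLY : Low Y := ⟨u', v', hY⟩
    have hXY' : ⁅X⁻¹ * d, Y * d'⁆ = ⁅X⁻¹, Y⁆ := by
      have c1 : Commute d Y := hLC d Y hd hLY
      have c2 : Commute d' d := hLC d' d ⟨0, v0, hd'⟩ hd
      have c3 : Commute X d' := center_lift_comm m hK c hm1 hX hd'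
      have c5 : Commute d' Y := hLC d' Y ⟨0, v0, hd'⟩ hLY
      simp only [commutatorElement_def]
      calc X⁻¹ * d * (Y * d') * (X⁻¹ * d)⁻¹ * (Y * d')⁻¹
          = X⁻¹ * (d * (Y * d')) * d⁻¹ * X * d'⁻¹ * Y⁻¹ := by group
        _ = X⁻¹ * ((Y * d') * d) * d⁻¹ * X * d'⁻¹ * Y⁻¹ := by rw [(c1.mul_right c2.symm).eq]
        _ = X⁻¹ * Y * (d' * X) * d'⁻¹ * Y⁻¹ := by group
        _ = X⁻¹ * Y * (X * d') * d'⁻¹ * Y⁻¹ := by rw [c3.eq]
        _ = X⁻¹ * Y * (X⁻¹)⁻¹ * Y⁻¹ := by group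
    rw [hz', hXd, hYd, hXY', show ⁅X⁻¹, Y⁆ = X⁻¹ * ⁅X, Y⁆⁻¹ * X by simp only [commutatorElement_def]; group]
    have hcm := center_lift_comm m hK c hm1 (Y := ⁅X, Y⁆⁻¹) (v' := -(u' * t)) hX
      (by rw [map_inv, hz, wr_low_inv m hK, neg_zero])
    rw [mul_assoc, ← hcm, inv_mul_cancel_left]
  -- the pairing on the first layer
  have hN_low : ∀ z ∈ N, Low z := by rintro z ⟨w, hw, rfl⟩; exact hLowD w hw
  have hposconj : ∀ X z, (∃ t u v, σ X = wr m t u v) → Low z → X * z * X⁻¹ * z⁻¹ ∈ N := fun X z hX hz => by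
    rw [← commutatorElement_def]; exact hPN X z hX hz
  have hNinv : ∀ s ∈ TG K m, ∀ z ∈ N, L s * z * (L s)⁻¹ ∈ N := by
    rintro s hs z ⟨w, hw, rfl⟩
    refine ⟨L s * w * (L s)⁻¹, hconjLow s hs w hw, ?_⟩
    calc L s * D w * (L s)⁻¹ = (L s * L a) * w * (L s * L a)⁻¹ * (L s * w * (L s)⁻¹)⁻¹ := by simp only [D]; group
      _ = (L a * L s) * w * (L a * L s)⁻¹ * (L s * w * (L s)⁻¹)⁻¹ := by
          rw [c.conj_eq (by rw [map_mul, map_mul, hL, hL, hTcomm s hs a haT] : σ (L s * L a) = σ (L a * L s))]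
      _ = D (L s * w * (L s)⁻¹) := by simp only [D]; group
  have hσcomm : ∀ X Y t u v t' u' v', σ X = wr m t u v → σ Y = wr m t' u' v' → Low ⁅X, Y⁆ := by
    intro X Y t u v t' u' v' hX hY
    refine ⟨(u + u' - t' ^ (3 * θ) * t) - (u' + u - t ^ (3 * θ) * t'),
      (v + v' - t' ^ (3 * θ) * t ^ 2 - (u - t' ^ (3 * θ) * t) * t') -
        (v' + v - t ^ (3 * θ) * t' ^ 2 - (u' - t ^ (3 * θ) * t') * t) +
        ((u + u' - t' ^ (3 * θ) * t) - (u' + u - t ^ (3 * θ) * t')) * (t' + t), ?_⟩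
    rw [commutatorElement_def, map_mul, map_mul, map_mul, map_inv, map_inv, hX, hY]
    rw [show wr m t u v * wr m t' u' v' * (wr m t u v)⁻¹ * (wr m t' u' v')⁻¹ =
      (wr m t u v * wr m t' u' v') * (wr m t' u' v' * wr m t u v)⁻¹ by group, mul_inv_eq_iff_eq_mul,
      wr_mul m hK, wr_mul m hK, low_mul_wr m hK]
    congr 1 <;> ring
  have hrep : ∀ t, ∀ X : Γ, (∃ u v, σ X = wr m t u v) → ∃ y, Low y ∧ X = L (wr m t 0 0) * y := by
    rintro t X ⟨u, v, hX⟩
    obtain ⟨i, hi, e'⟩ := c.exists_of_map_eq (x := X) (y := L (wr m t 0 0) * L (wr m 0 u v))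
      (by rw [map_mul, hL, hL, hX, wr_mul_low m hK, zero_add, zero_add])
    exact ⟨L (wr m 0 u v) * i, hLowMul _ _ ⟨u, v, hL _⟩ ⟨0, 0, by rw [MonoidHom.mem_ker.1 hi, wr_zero]⟩,
      by rw [e', mul_assoc]⟩
  have hLt : ∀ t, ∃ a b d, σ (L (wr m t (0 : K) 0)) = wr m a b d := fun t => ⟨t, 0, 0, hL _⟩
  have hdec' : ∀ t t', ∃ i ∈ σ.ker, i⁻¹ * ⁅L (wr m t 0 0), L (wr m t' 0 0)⁆ ∈ N := by
    intro t t'
    obtain ⟨i, hi, w, hw, e'⟩ := hdec _ (hσcomm (L (wr m t 0 0)) (L (wr m t' 0 0)) t 0 0 t' 0 0 (hL _) (hL _))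
    refine ⟨i, hi, ?_⟩
    rw [e', c.comm _ hi, inv_mul_cancel_left]
    exact ⟨w, hw, rfl⟩
  choose B hBker hBN using hdec'
  have hBu : ∀ X Y t t', (∃ u v, σ X = wr m t u v) → (∃ u v, σ Y = wr m t' u v) → (B t t')⁻¹ * ⁅X, Y⁆ ∈ N := by
    intro X Y t t' hX hY
    obtain ⟨y, hy, eX⟩ := hrep t X hX
    obtain ⟨y', hy', eY⟩ := hrep t' Y hY
    set x := L (wr m t (0 : K) 0)
    set x' := L (wr m t' (0 : K) 0)
    obtain ⟨u, v, hX⟩ := hX
    have n1 : ⁅x, y'⁆ ∈ N := hPN _ _ (hLt t) hy'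
    have n2 : ⁅X, y'⁆ ∈ N := hPN _ _ ⟨t, u, v, hX⟩ hy'
    have n3 : x' * ⁅X, y'⁆ * x'⁻¹ ∈ N := by
      have := mul_mem (hposconj x' _ (hLt t') (hN_low _ n2)) n2
      rwa [inv_mul_cancel_right] at this
    have n4 : ⁅x', y⁆⁻¹ ∈ N := inv_mem (hPN _ _ (hLt t') hy)
    have n5 : x * ⁅x', y⁆⁻¹ * x⁻¹ ∈ N := by
      have := mul_mem (hposconj x _ (hLt t) (hN_low _ n4)) n4
      rwa [inv_mul_cancel_right] at this
    have hsplit : ⁅X, Y⁆ = x * ⁅x', y⁆⁻¹ * x⁻¹ * ⁅x, x'⁆ * (x' * ⁅X, y'⁆ * x'⁻¹) := by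
      rw [eY, eX]; simp only [commutatorElement_def]; group
    rw [hsplit, show (B t t')⁻¹ * (x * ⁅x', y⁆⁻¹ * x⁻¹ * ⁅x, x'⁆ * (x' * ⁅X, y'⁆ * x'⁻¹)) =
      ((B t t')⁻¹ * (x * ⁅x', y⁆⁻¹ * x⁻¹)) * (⁅x, x'⁆ * (x' * ⁅X, y'⁆ * x'⁻¹)) by group,
      ← c.comm (x * ⁅x', y⁆⁻¹ * x⁻¹) (inv_mem (hBker t t')),
      show (x * ⁅x', y⁆⁻¹ * x⁻¹) * (B t t')⁻¹ * (⁅x, x'⁆ * (x' * ⁅X, y'⁆ * x'⁻¹)) =
        (x * ⁅x', y⁆⁻¹ * x⁻¹) * ((B t t')⁻¹ * ⁅x, x'⁆) * (x' * ⁅X, y'⁆ * x'⁻¹) by group]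
    exact mul_mem (mul_mem n5 (hBN t t')) n3
  have hBeq : ∀ X Y t t' i, (∃ u v, σ X = wr m t u v) → (∃ u v, σ Y = wr m t' u v) → i ∈ σ.ker →
      i⁻¹ * ⁅X, Y⁆ ∈ N → B t t' = i := by
    intro X Y t t' i hX hY hi hn
    have h1 := mul_mem hn (inv_mem (hBu X Y t t' hX hY))
    rw [show i⁻¹ * ⁅X, Y⁆ * ((B t t')⁻¹ * ⁅X, Y⁆)⁻¹ = i⁻¹ * B t t' by group] at h1
    exact (_root_.inv_mul_eq_one.1 (hNker _ h1 (mul_mem (inv_mem hi) (hBker t t')))).symm
  have hB1 : ∀ x y, B x y = 1 := by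
    refine fun x y => pair_zero B ?_ ?_ id (fun _ h => h) ?_ hk hk1 (inv_not_additive hk hk1 hk2) x y
    · intro x x' y
      set X := L (wr m x (0 : K) 0)
      set X' := L (wr m x' (0 : K) 0)
      set Y := L (wr m y (0 : K) 0)
      refine hBeq (X * X') Y (x + x') y _ ⟨_, _, by rw [map_mul, hL, hL, wr_mul m hK]⟩ ⟨0, 0, hL _⟩
        (mul_mem (hBker x y) (hBker x' y)) ?_
      have nY : (B x' y)⁻¹ * ⁅X', Y⁆ ∈ N := hBN x' y
      have nc : X * ((B x' y)⁻¹ * ⁅X', Y⁆) * X⁻¹ ∈ N := by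
        have := mul_mem (hposconj X _ (hLt x) (hN_low _ nY)) nY
        rwa [inv_mul_cancel_right] at this
      have key := mul_mem nc (hBN x y)
      have e1 : X * ((B x' y)⁻¹ * ⁅X', Y⁆) * X⁻¹ = (B x' y)⁻¹ * (X * ⁅X', Y⁆ * X⁻¹) := by
        rw [← mul_assoc X, c.comm X (inv_mem (hBker x' y))]; group
      have e2 : ∀ w, w * (B x y)⁻¹ = (B x y)⁻¹ * w := fun w => c.comm w (inv_mem (hBker x y))
      rw [e1, show (B x' y)⁻¹ * (X * ⁅X', Y⁆ * X⁻¹) * ((B x y)⁻¹ * ⁅X, Y⁆) =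
          ((B x' y)⁻¹ * (X * ⁅X', Y⁆ * X⁻¹) * (B x y)⁻¹) * ⁅X, Y⁆ by group, e2,
        show (B x y)⁻¹ * ((B x' y)⁻¹ * (X * ⁅X', Y⁆ * X⁻¹)) * ⁅X, Y⁆ =
          ((B x y)⁻¹ * (B x' y)⁻¹) * ⁅X * X', Y⁆ by simp only [commutatorElement_def]; group] at key
      rwa [_root_.mul_inv_rev, c.comm _ (inv_mem (hBker x y))]
    · intro x y y'
      set X := L (wr m x (0 : K) 0)
      set Y := L (wr m y (0 : K) 0)
      set Y' := L (wr m y' (0 : K) 0)
      refine hBeq X (Y * Y') x (y + y') _ ⟨0, 0, hL _⟩ ⟨_, _, by rw [map_mul, hL, hL, wr_mul m hK]⟩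
        (mul_mem (hBker x y) (hBker x y')) ?_
      have nY : (B x y')⁻¹ * ⁅X, Y'⁆ ∈ N := hBN x y'
      have nc : Y * ((B x y')⁻¹ * ⁅X, Y'⁆) * Y⁻¹ ∈ N := by
        have := mul_mem (hposconj Y _ (hLt y) (hN_low _ nY)) nY
        rwa [inv_mul_cancel_right] at this
      have key := mul_mem (hBN x y) nc
      have e1 : Y * ((B x y')⁻¹ * ⁅X, Y'⁆) * Y⁻¹ = (B x y')⁻¹ * (Y * ⁅X, Y'⁆ * Y⁻¹) := by
        rw [← mul_assoc Y, c.comm Y (inv_mem (hBker x y'))]; group
      have e2 : ∀ w, w * (B x y')⁻¹ = (B x y')⁻¹ * w := fun w => c.comm w (inv_mem (hBker x y'))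
      rw [e1, ← mul_assoc, e2, show (B x y')⁻¹ * ((B x y)⁻¹ * ⁅X, Y⁆) * (Y * ⁅X, Y'⁆ * Y⁻¹) =
          ((B x y')⁻¹ * (B x y)⁻¹) * ⁅X, Y * Y'⁆ by simp only [commutatorElement_def]; group] at key
      rwa [_root_.mul_inv_rev]
    · intro s hs x y
      obtain ⟨b, hbT, hb⟩ := torus_k m hK hs
      refine hBeq (L b * L (wr m x 0 0) * (L b)⁻¹) (L b * L (wr m y 0 0) * (L b)⁻¹) _ _ _
        ⟨_, _, by rw [map_mul, map_mul, map_inv, hL, hL, hb]⟩
        ⟨_, _, by rw [map_mul, map_mul, map_inv, hL, hL, hb]; rfl⟩ (hBker x y) ?_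
      have := hNinv b hbT _ (hBN x y)
      rwa [show L b * ((B x y)⁻¹ * ⁅L (wr m x (0 : K) 0), L (wr m y (0 : K) 0)⁆) * (L b)⁻¹ =
          (L b * (B x y)⁻¹ * (L b)⁻¹) * ⁅L b * L (wr m x (0 : K) 0) * (L b)⁻¹, L b * L (wr m y (0 : K) 0) * (L b)⁻¹⁆ by
          simp only [commutatorElement_def]; group, c.conj_ker _ (inv_mem (hBker x y))] at this
  have hle : ⁅U.comap σ, U.comap σ⁆ ≤ N := Subgroup.commutator_le.2 fun X hX Y hY => by
    obtain ⟨t, u, v, hX⟩ := exists_wr m hK (hU _ hX)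
    obtain ⟨t', u', v', hY⟩ := exists_wr m hK (hU _ hY)
    have := hBu X Y t t' ⟨u, v, hX⟩ ⟨u', v', hY⟩
    rwa [hB1, inv_one, one_mul] at this
  have h1 := hNker e (hle heU) c.e_mem
  have := c.order
  rw [h1, orderOf_one] at this
  norm_num at this

end cover

end CfsgLib.Chev.Ree
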